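import Cfsg.Agent.Lib.SporRecognition.F22Model.Outer.Data
import Cfsg.Agent.Lib.SporadicOut.Fi22

/-!
The automorphism group as the group of permutations of the 3510 points respecting conjugation among the members.
-/

set_option autoImplicit false
set_option linter.style.haveILetI false
set_option linter.constructorNameAsVariable false
set_option maxRecDepth 100000

namespace CfsgLib.SporRecognition.F22Model.Outer

open CfsgLib.SporRecognition.CosetCert

variable {G : Type*} [Group G] {D : Set G} (M : Model G D)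

/-- The permutation carries conjugates of members to conjugates of members. -/
def Op (π : Equiv.Perm (Fin 3510)) : Prop := ∀ u v, π (M.act (M.tau u) v) = M.act (M.tau (π u)) (π v)

/-- The permutations respecting conjugation. -/
noncomputable def AutPerm : Subgroup (Equiv.Perm (Fin 3510)) where
  carrier := {π | Op M π}
  one_mem' := fun _ _ => rfl
  mul_mem' := fun {a b} ha hb u v => by
    rw [Equiv.Perm.mul_apply, hb, ha]
    rfl
  inv_mem' := fun {a} ha u v => by
    apply a.injective
    rw [ha]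
    simp

theorem mem_autPerm {π : Equiv.Perm (Fin 3510)} : π ∈ AutPerm M ↔ Op M π := Iff.rfl

theorem act_mem (g : G) : M.act g ∈ AutPerm M := fun u v => M.act_tau g u v

/-- The point of a generator. -/
def gp (x : Gen) : Fin 3510 := ⟨genPt x, by cases x <;> decide⟩

theorem gen_mem (x : Gen) : x ∈ ([.a, .b, .c, .d, .e, .f, .g, .h, .i] : List Gen) := by cases x <;> simp

theorem gen_spec (x : Gen) : tr (genW x) 0 = genPt x ∧ keyEq (memWord (genW x)) [(x, true)] = true ∧
    tr (sGenW x) 0 = sT (genPt x) := by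
  have h := List.all_eq_true.1 gen_chk x (gen_mem x)
  simp only [Bool.and_eq_true, Nat.beq_eq, Nat.blt_eq] at h
  exact ⟨h.1.1.2, h.1.2, h.2⟩

theorem tau_gp (x : Gen) : M.tau (gp x) = M.ev [(x, true)] := by
  rw [M.tau_word (genW x) _ (gen_spec x).1]
  exact M.ev_eq (gen_spec x).2.1

theorem tau_sq (u : Fin 3510) : M.tau u * M.tau u = 1 := by
  have h : M.ev [(.a, true)] * M.ev [(.a, true)] = 1 := by
    rw [← M.ev_append, M.ev_eq (show keyEq _ [] = true by decide +kernel), M.ev_nil]
  obtain ⟨g, hg⟩ := Cert.Fi22Conf.base.trans (gp .a) u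
  have e : M.act (M.iso.symm g) (gp .a) = u := by
    show Cert.Fi22U.certified.hom (M.iso (M.iso.symm g)) (gp .a) = u
    rw [MulEquiv.apply_symm_apply, hg]
  rw [← e, ← M.heq, tau_gp M .a, show ∀ a b : G, a * b * a⁻¹ * (a * b * a⁻¹) = a * (b * b) * a⁻¹ from
    fun a b => by group, h]
  group

theorem ev_letter (x : Gen) (b : Bool) : M.ev [(x, b)] = M.tau (gp x) := by
  cases b
  · rw [show ([(x, false)] : Word) = winv [(x, true)] from rfl, M.ev_winv, ← tau_gp M x]
    exact inv_eq_of_mul_eq_one_right (tau_sq M _)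
  · exact (tau_gp M x).symm

/-- A set of points containing the nine generating points and closed under conjugation is everything. -/
theorem closed_eq_univ (S : Set (Fin 3510)) (hg : ∀ x, gp x ∈ S) (hc : ∀ u ∈ S, ∀ v ∈ S, M.act (M.tau u) v ∈ S)
    (u : Fin 3510) : u ∈ S := by
  have key : ∀ w : Word, M.act (M.ev w) (gp .a) ∈ S := by
    intro w
    induction w with
    | nil => rw [M.ev_nil, map_one]; exact hg _
    | cons l w ih =>
      rw [← List.singleton_append, M.ev_append, map_mul, Equiv.Perm.mul_apply, ev_letter]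
      exact hc _ (hg _) _ ih
  obtain ⟨g, hg'⟩ := Cert.Fi22Conf.base.trans (gp .a) u
  obtain ⟨w, hw⟩ := M.exists_ev (M.iso.symm g)
  have h := key w
  rw [hw, show M.act (M.iso.symm g) (gp .a) = u from by
    show Cert.Fi22U.certified.hom (M.iso (M.iso.symm g)) (gp .a) = u
    rw [MulEquiv.apply_symm_apply, hg']] at h
  exact h

/-- Two such permutations agreeing on the nine generating points are equal. -/
theorem eq_of_gens {π π' : Equiv.Perm (Fin 3510)} (h : π ∈ AutPerm M) (h' : π' ∈ AutPerm M)
    (e : ∀ x, π (gp x) = π' (gp x)) : π = π' :=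
  Equiv.ext fun u => closed_eq_univ M {u | π u = π' u} e
    (fun a ha b hb => by
      simp only [Set.mem_setOf_eq] at ha hb ⊢
      rw [h, h', ha, hb]) u

/-- Conjugation by such a permutation maps the image of the group into itself. -/
theorem exists_conj {π : Equiv.Perm (Fin 3510)} (hπ : π ∈ AutPerm M) (g : G) :
    ∃ h, M.act h = π * M.act g * π⁻¹ := by
  have htau : ∀ u, M.act (M.tau (π u)) = π * M.act (M.tau u) * π⁻¹ := fun u => by
    rw [eq_mul_inv_iff_mul_eq]
    exact Equiv.ext fun v => (hπ u v).symm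
  obtain ⟨w, rfl⟩ := M.exists_ev g
  induction w with
  | nil => exact ⟨1, by rw [M.ev_nil, map_one]; group⟩
  | cons l w ih =>
    obtain ⟨h, hh⟩ := ih
    refine ⟨M.tau (π (gp l.1)) * h, ?_⟩
    rw [← List.singleton_append, M.ev_append, map_mul, map_mul, hh, htau, ev_letter M l.1 l.2]
    group

noncomputable def conjFun (π : AutPerm M) (g : G) : G := (exists_conj M π.2 g).choose

theorem conjFun_spec (π : AutPerm M) (g : G) :
    M.act (conjFun M π g) = (π : Equiv.Perm (Fin 3510)) * M.act g * (π : Equiv.Perm (Fin 3510))⁻¹ :=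
  (exists_conj M π.2 g).choose_spec

theorem conjFun_mul (π π' : AutPerm M) (g : G) : conjFun M π (conjFun M π' g) = conjFun M (π * π') g :=
  M.act_injective (by rw [conjFun_spec, conjFun_spec, conjFun_spec, Subgroup.coe_mul]; group)

theorem conjFun_one (g : G) : conjFun M 1 g = g := M.act_injective (by rw [conjFun_spec]; simp)

/-- The automorphism of a permutation. -/
noncomputable def toAut : AutPerm M →* MulAut G where
  toFun π :=
    { toFun := conjFun M π
      invFun := conjFun M π⁻¹
      left_inv := fun g => by rw [conjFun_mul, inv_mul_cancel, conjFun_one]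
      right_inv := fun g => by rw [conjFun_mul, mul_inv_cancel, conjFun_one]
      map_mul' := fun a b => M.act_injective (by
        rw [map_mul, conjFun_spec, conjFun_spec, conjFun_spec, map_mul]; group) }
  map_one' := MulEquiv.ext (conjFun_one M)
  map_mul' π π' := MulEquiv.ext fun g => (conjFun_mul M π π' g).symm

theorem toAut_spec (π : AutPerm M) (g : G) :
    M.act (toAut M π g) = (π : Equiv.Perm (Fin 3510)) * M.act g * (π : Equiv.Perm (Fin 3510))⁻¹ := conjFun_spec M π g

/-- The automorphism fixes an element exactly when the permutation commutes with it. -/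
theorem toAut_fix_iff (π : AutPerm M) (g : G) : toAut M π g = g ↔ Commute (π : Equiv.Perm (Fin 3510)) (M.act g) := by
  rw [← M.act_injective.eq_iff, toAut_spec, mul_inv_eq_iff_eq_mul]
  exact Iff.rfl

theorem toAut_injective : Function.Injective (toAut M) := by
  rw [← MonoidHom.ker_eq_bot_iff, Subgroup.eq_bot_iff_forall]
  intro π hπ
  refine Subtype.ext (Equiv.ext fun u => M.tau_injective (M.act_injective ?_))
  have h := toAut_spec M π (M.tau u)
  rw [MonoidHom.mem_ker.1 hπ] at h
  have e : M.act (M.tau ((π : Equiv.Perm (Fin 3510)) u)) =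
      (π : Equiv.Perm (Fin 3510)) * M.act (M.tau u) * (π : Equiv.Perm (Fin 3510))⁻¹ := by
    rw [eq_mul_inv_iff_mul_eq]
    exact Equiv.ext fun v => (π.2 u v).symm
  rw [e, ← h]
  rfl

theorem toAut_act (g : G) : toAut M ⟨M.act g, act_mem M g⟩ = MulAut.conj g :=
  MulEquiv.ext fun x => M.act_injective (by rw [toAut_spec, MulAut.conj_apply, map_mul, map_mul, map_inv])

theorem sT_spec (u : Fin 3510) : sT u < 3510 ∧ sT (sT u) = u := by
  have h := allBelow_spec sT_chk u u.2
  simp only [Bool.and_eq_true, Nat.blt_eq, Nat.beq_eq] at h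
  exact h

/-- The outer involution. -/
noncomputable def sPerm : Equiv.Perm (Fin 3510) where
  toFun u := ⟨sT u, (sT_spec u).1⟩
  invFun u := ⟨sT u, (sT_spec u).1⟩
  left_inv u := Fin.ext (sT_spec u).2
  right_inv u := Fin.ext (sT_spec u).2

theorem sPerm_val (u : Fin 3510) : ((sPerm u : Fin 3510) : Nat) = sT u := rfl

theorem sPerm_sq : sPerm * sPerm = 1 := Equiv.ext fun u => Fin.ext (sT_spec u).2

theorem sPerm_mem : sPerm ∈ AutPerm M := by
  have hgen : ∀ x v, sPerm (M.act (M.tau (gp x)) v) = M.act (M.tau (sPerm (gp x))) (sPerm v) := by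
    intro x v
    refine Fin.ext ?_
    rw [sPerm_val, tau_gp M x, M.act_ev, M.tau_word (sGenW x) _ (gen_spec x).2.2, M.act_ev, sPerm_val]
    have h : ∀ y : Gen, Nat.beq (sT (tr [(y, true)] v)) (tr (memWord (sGenW y)) (sT v)) = true := by
      intro y
      cases y
      exacts [allBelow_spec sOp_a v v.2, allBelow_spec sOp_b v v.2, allBelow_spec sOp_c v v.2, allBelow_spec sOp_d v v.2,
        allBelow_spec sOp_e v v.2, allBelow_spec sOp_f v v.2, allBelow_spec sOp_g v v.2, allBelow_spec sOp_h v v.2,
        allBelow_spec sOp_i v v.2]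
    exact Nat.eq_of_beq_eq_true (h x)
  intro u
  refine closed_eq_univ M {u | ∀ v, sPerm (M.act (M.tau u) v) = M.act (M.tau (sPerm u)) (sPerm v)} hgen
    (fun a ha b hb v => ?_) u
  simp only [Set.mem_setOf_eq] at ha hb ⊢
  have e : ∀ w, M.act (M.tau (M.act (M.tau a) b)) w = M.act (M.tau a) (M.act (M.tau b) (M.act (M.tau a)⁻¹ w)) := by
    intro w
    rw [← M.heq, map_mul, map_mul, Equiv.Perm.mul_apply, Equiv.Perm.mul_apply]
  have e' : ∀ w, M.act (M.tau (M.act (M.tau (sPerm a)) (sPerm b))) w =
      M.act (M.tau (sPerm a)) (M.act (M.tau (sPerm b)) (M.act (M.tau (sPerm a))⁻¹ w)) := by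
    intro w
    rw [← M.heq, map_mul, map_mul, Equiv.Perm.mul_apply, Equiv.Perm.mul_apply]
  have hinv : ∀ c : Fin 3510, (M.tau c)⁻¹ = M.tau c := fun c => inv_eq_of_mul_eq_one_right (tau_sq M c)
  rw [e, ha, hb, ha b, e', hinv, hinv, ha v]

/-- The number of points fixed by a permutation. -/
noncomputable def fixC (π : Equiv.Perm (Fin 3510)) : Nat := {u : Fin 3510 | π u = u}.ncard

theorem fixC_conj (c π : Equiv.Perm (Fin 3510)) : fixC (c * π * c⁻¹) = fixC π := by
  have e : {u : Fin 3510 | (c * π * c⁻¹) u = u} = c '' {u : Fin 3510 | π u = u} := by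
    ext u
    rw [Equiv.image_eq_preimage_symm]
    simp [Equiv.apply_eq_iff_eq_symm_apply, Equiv.Perm.inv_def]
  rw [fixC, e, Set.ncard_image_of_injective _ c.injective, fixC]

theorem fixC_eq {π : Equiv.Perm (Fin 3510)} {t : Nat → Nat} (ht : ∀ u : Fin 3510, ((π u : Fin 3510) : Nat) = t u)
    {m : Nat} (h : countLab 12 3510 (fun u => bif Nat.beq (t u) u then 1 else 0) 1 = m) : fixC π = m := by
  rw [← h, ← ncard_lab (by decide), fixC]
  congr 1
  ext u
  rw [Set.mem_setOf_eq, Set.mem_setOf_eq, Fin.ext_iff, ht]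
  cases hb : Nat.beq (t u) u
  · have hne : t u ≠ u := fun e => by rw [e, Nat.beq_refl] at hb; exact absurd hb (by decide)
    simp [hne]
  · simp [Nat.eq_of_beq_eq_true hb]

theorem sign_of_fix {π : Equiv.Perm (Fin 3510)} (h : π * π = 1) :
    Equiv.Perm.sign π = (-1) ^ ((3510 - fixC π) / 2) := by
  rw [Equiv.Perm.sign_of_pow_two_eq_one (by rw [pow_two, h]), Fintype.card_fin]
  congr 3
  rw [fixC, ← Nat.card_eq_fintype_card, Nat.card_coe_set_eq]
  rfl

theorem sign_act (g : G) : Equiv.Perm.sign (M.act g) = 1 := by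
  have hx : ∀ x, Equiv.Perm.sign (M.act (M.tau (gp x))) = 1 := fun x => by
    rw [sign_of_fix (by rw [← map_mul, tau_sq, map_one]), fixC_eq (t := tr [(x, true)])
      (fun u => by rw [tau_gp, M.act_ev]) (Nat.eq_of_beq_eq_true (List.all_eq_true.1 genFix x (gen_mem x)))]
    exact (show Even ((3510 - 694) / 2) by decide).neg_one_pow
  obtain ⟨w, rfl⟩ := M.exists_ev g
  induction w with
  | nil => rw [M.ev_nil, map_one, map_one]
  | cons l w ih => rw [← List.singleton_append, M.ev_append, map_mul, map_mul, ih, mul_one, ev_letter, hx]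

theorem fixC_sPerm : fixC sPerm = 360 := fixC_eq sPerm_val sFix

theorem sign_sPerm : Equiv.Perm.sign sPerm = -1 := by
  rw [sign_of_fix sPerm_sq, fixC_sPerm]
  exact (show Odd ((3510 - 360) / 2) by decide).neg_one_pow

theorem toAut_mem_inn {π : AutPerm M} (h : toAut M π ∈ (MulAut.conj : G →* MulAut G).range) :
    Equiv.Perm.sign (π : Equiv.Perm (Fin 3510)) = 1 := by
  obtain ⟨g, hg⟩ := h
  rw [← toAut_act M g] at hg
  rw [← toAut_injective M hg]
  exact sign_act M g

include M in
/-- Every automorphism comes from a permutation. -/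
theorem toAut_surjective : Function.Surjective (toAut M) := by
  let ψ : AutPerm M →* MulAut K := (MulAut.congr M.iso).toMonoidHom.comp (toAut M)
  have hcongr : ∀ g : G, MulAut.congr M.iso (MulAut.conj g) = MulAut.conj (M.iso g) := fun g =>
    MulEquiv.ext fun x => by simp [MulAut.congr]
  have hle : Cfsg.Inn K ≤ ψ.range := by
    rintro _ ⟨k, rfl⟩
    refine ⟨⟨M.act (M.iso.symm k), act_mem M _⟩, ?_⟩
    show MulAut.congr M.iso (toAut M _) = _
    rw [toAut_act, hcongr, MulEquiv.apply_symm_apply]
  have hs : ψ ⟨sPerm, sPerm_mem M⟩ ∉ Cfsg.Inn K := by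
    rintro ⟨k, hk⟩
    have h : toAut M ⟨sPerm, sPerm_mem M⟩ ∈ (MulAut.conj : G →* MulAut G).range := by
      refine ⟨M.iso.symm k, (MulAut.congr M.iso).injective ?_⟩
      rw [hcongr, MulEquiv.apply_symm_apply]
      exact hk
    have := toAut_mem_inn M h
    rw [sign_sPerm] at this
    exact absurd this (by decide)
  have hidx : (Cfsg.Inn K).index = 2 := CfsgLib.SporadicOut.Fi22.natCard_out_fi22G
  have htop : ψ.range = ⊤ := by
    rw [eq_top_iff]
    intro φ _
    by_cases h : φ ∈ Cfsg.Inn K
    · exact hle h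
    · have := (Subgroup.mul_mem_iff_of_index_two hidx (a := ψ ⟨sPerm, sPerm_mem M⟩) (b := φ)).2
        (by simp only [hs, h])
      obtain ⟨x, hx⟩ := hle this
      refine ⟨(⟨sPerm, sPerm_mem M⟩ : AutPerm M)⁻¹ * x, ?_⟩
      rw [map_mul, map_inv, hx, inv_mul_cancel_left]
  intro α
  obtain ⟨x, hx⟩ : MulAut.congr M.iso α ∈ ψ.range := by rw [htop]; trivial
  exact ⟨x, (MulAut.congr M.iso).injective hx⟩

/-- The automorphism group as permutations. -/
noncomputable def autEquiv : AutPerm M ≃* MulAut G :=
  MulEquiv.ofBijective (toAut M) ⟨toAut_injective M, toAut_surjective M⟩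

theorem mem_inn_iff (π : AutPerm M) : toAut M π ∈ (MulAut.conj : G →* MulAut G).range ↔
    (π : Equiv.Perm (Fin 3510)) ∈ (M.act : G →* Equiv.Perm (Fin 3510)).range := by
  constructor
  · rintro ⟨g, hg⟩
    rw [← toAut_act M g] at hg
    exact ⟨g, congrArg Subtype.val (toAut_injective M hg)⟩
  · rintro ⟨g, hg⟩
    exact ⟨g, by rw [← toAut_act M g]; exact congrArg _ (Subtype.ext hg)⟩

end CfsgLib.SporRecognition.F22Model.Outer
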