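import Cfsg.Agent.Lib.SporRecognition.F22Model.Outer.ClassifyChk
import Cfsg.Agent.Lib.SporRecognition.F22Model.Three.Group

/-!
Every involution of the automorphism group outside the inner ones is conjugate to one of three: a Sylow 2-subgroup
of order 2^18 is given by cosets of an elementary abelian subgroup of order 2^10 generated by members.
-/

set_option autoImplicit false
set_option linter.style.haveILetI false
set_option linter.constructorNameAsVariable false
set_option maxRecDepth 100000

namespace CfsgLib.SporRecognition.F22Model.Outer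

namespace Classify

open CfsgLib.SporRecognition.CosetCert

variable {G : Type*} [Group G] {D : Set G} (M : Model G D)

theorem cl_lt (c : Fin 22) : cl c < 3510 := by
  have h := cl_chk c
  simp only [Bool.and_eq_true, Nat.blt_eq] at h
  exact h.1.1.1

/-- A point of the clique. -/
noncomputable def clp (c : Fin 22) : Fin 3510 := ⟨cl c, cl_lt c⟩

/-- A point of the basis. -/
noncomputable def bpt (i : Fin 10) : Fin 3510 := clp (basI.getD i 0)

/-- The fourteen generators. -/
noncomputable def ge (i : Fin 14) : Equiv.Perm (Fin 3510) :=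
  Fin.addCases (m := 4) (n := 10) ![sPerm, M.act (M.ev hw1), M.act (M.ev hw2), M.act (M.ev hw3)]
    (fun k => M.act (M.tau (bpt k))) i

theorem ge_basis (k : Fin 10) : ge M (Fin.natAdd 4 k) = M.act (M.tau (bpt k)) := Fin.addCases_right _

theorem ge_spec (i : Fin 14) (u : Fin 3510) : ((ge M i u : Fin 3510) : Nat) = tab i u := by
  induction i using Fin.addCases (m := 4) (n := 10) with
  | left g =>
    rw [ge, Fin.addCases_left]
    fin_cases g
    exacts [sPerm_val u, M.act_tab H1_eq u, M.act_tab H2_eq u, M.act_tab H3_eq u]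
  | right k =>
    rw [ge_basis, M.tau_word (bwd k) (bpt k) (Nat.eq_of_beq_eq_true (bwd_chk k))]
    fin_cases k
    exacts [M.act_tab E0_eq u, M.act_tab E1_eq u, M.act_tab E2_eq u, M.act_tab E3_eq u, M.act_tab E4_eq u,
      M.act_tab E5_eq u, M.act_tab E6_eq u, M.act_tab E7_eq u, M.act_tab E8_eq u, M.act_tab E9_eq u]

theorem ge_mem (i : Fin 14) : ge M i ∈ AutPerm M := by
  induction i using Fin.addCases (m := 4) (n := 10) with
  | left g =>
    rw [ge, Fin.addCases_left]
    fin_cases g
    exacts [sPerm_mem M, act_mem M _, act_mem M _, act_mem M _]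
  | right k =>
    rw [ge_basis]
    exact act_mem M _

/-- The product of a list of generators. -/
noncomputable def PP (l : List (Fin 14)) : Equiv.Perm (Fin 3510) := (l.map (ge M)).prod

theorem PP_nil : PP M [] = 1 := rfl

theorem PP_cons (i : Fin 14) (l : List (Fin 14)) : PP M (i :: l) = ge M i * PP M l := by simp [PP]

theorem PP_append (l l' : List (Fin 14)) : PP M (l ++ l') = PP M l * PP M l' := by simp [PP]

theorem PP_spec (l : List (Fin 14)) (u : Fin 3510) : ((PP M l u : Fin 3510) : Nat) = evalP l u := by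
  induction l generalizing u with
  | nil => rfl
  | cons i l ih =>
    rw [PP_cons, Equiv.Perm.mul_apply, ge_spec, ih]
    rfl

theorem PP_mem (l : List (Fin 14)) : PP M l ∈ AutPerm M := by
  refine list_prod_mem fun y hy => ?_
  obtain ⟨i, -, rfl⟩ := List.mem_map.1 hy
  exact ge_mem M i

include M in
/-- Permutations agreeing at the nine points. -/
theorem eq_of_agree {π π' : Equiv.Perm (Fin 3510)} (h : π ∈ AutPerm M) (h' : π' ∈ AutPerm M) {f f' : Nat → Nat}
    (hf : ∀ u, ((π u : Fin 3510) : Nat) = f u) (hf' : ∀ u, ((π' u : Fin 3510) : Nat) = f' u)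
    (e : agree f f' = true) : π = π' :=
  eq_of_gens M h h' fun x => Fin.ext (by
    rw [hf, hf']
    exact Nat.eq_of_beq_eq_true (List.all_eq_true.1 e _ (List.mem_map.2 ⟨x, gen_mem x, rfl⟩)))

theorem PP_eq {l l' : List (Fin 14)} (e : agree (evalP l) (evalP l') = true) : PP M l = PP M l' :=
  eq_of_agree M (PP_mem M l) (PP_mem M l') (PP_spec M l) (PP_spec M l') e

/-- The product over a list of the selected ones. -/
def sel {ι H : Type*} [Group H] (f : ι → H) (b : ι → Bool) (l : List ι) : H :=
  (l.map fun i => bif b i then f i else 1).prod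

theorem sel_xor {ι H : Type*} [Group H] {f : ι → H} (hc : ∀ i j, Commute (f i) (f j)) (hs : ∀ i, f i * f i = 1)
    (b b' : ι → Bool) (l : List ι) : sel f b l * sel f b' l = sel f (fun i => Bool.xor (b i) (b' i)) l := by
  have hcm : ∀ i (c : ι → Bool) (l : List ι), Commute (f i) (sel f c l) := fun i c l => by
    refine Commute.list_prod_right _ _ fun y hy => ?_
    obtain ⟨k, -, rfl⟩ := List.mem_map.1 hy
    cases c k
    exacts [Commute.one_right _, hc i k]
  induction l with
  | nil => simp [sel]
  | cons i l ih =>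
    have e : ∀ c : ι → Bool, sel f c (i :: l) = (bif c i then f i else 1) * sel f c l := fun c => by simp [sel]
    rw [e, e, e, ← ih]
    have h := (hcm i b l).eq
    cases b i <;> cases b' i <;> simp only [Bool.xor_false, Bool.xor_true, Bool.not_true,
      Bool.not_false, cond_true, cond_false, one_mul, ← mul_assoc]
    · rw [← h]
    · rw [mul_assoc (f i) _ (f i), ← h, ← mul_assoc, hs, one_mul]

/-- The product of the members in a mask. -/
noncomputable def P (m : Nat) : Equiv.Perm (Fin 3510) := PP M (maskList m)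

theorem P_eq_sel (m : Nat) : P M m = sel (fun k => M.act (M.tau (bpt k))) (fun (i : Fin 10) => m.testBit i) ten := by
  rw [P, maskList]
  generalize ten = l
  induction l with
  | nil => rfl
  | cons i l ih =>
    simp only [sel, List.map_cons, List.prod_cons, List.filter_cons] at ih ⊢
    cases hb : m.testBit i
    · simp only [Bool.false_eq_true, if_false, cond_false, one_mul]
      exact ih
    · simp only [if_true, cond_true, List.map_cons, PP_cons, ge_basis]
      rw [ih]

theorem commute_basis (i j : Fin 10) : Commute (M.act (M.tau (bpt i))) (M.act (M.tau (bpt j))) := by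
  refine Commute.map ((M.commute_tau_iff _ _).2 (Fin.ext ?_)) M.act
  rw [← ge_basis, ge_spec]
  exact Nat.eq_of_beq_eq_true (fix_chk i _)

theorem P_xor (m m' : Nat) : P M m * P M m' = P M (Nat.xor m m') := by
  rw [P_eq_sel, P_eq_sel, P_eq_sel, sel_xor (commute_basis M) fun i => by rw [← map_mul, tau_sq, map_one]]
  congr 1
  funext i
  exact (Nat.testBit_xor m m' i).symm

theorem P_zero : P M 0 = 1 := by
  rw [P, show maskList 0 = [] by decide +kernel, PP_nil]

theorem P_inv (m : Nat) : (P M m)⁻¹ = P M m := by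
  refine inv_eq_of_mul_eq_one_right ?_
  rw [P_xor, show Nat.xor m m = 0 from Nat.xor_self m, P_zero]

theorem P_mem (m : Nat) : P M m ∈ AutPerm M := PP_mem M _

theorem P_fix (m : Nat) (c : Fin 22) : P M m (clp c) = clp c := by
  rw [P_eq_sel, sel]
  induction ten with
  | nil => rfl
  | cons i l ih =>
    rw [List.map_cons, List.prod_cons, Equiv.Perm.mul_apply, ih]
    cases m.testBit i
    · rfl
    · rw [cond_true, ← ge_basis]
      exact Fin.ext ((ge_spec M _ _).trans (Nat.eq_of_beq_eq_true (fix_chk i c)))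

theorem eq_zero_of_P {m : Nat} (hm : m < 1024) (h : P M m = 1) : m = 0 := by
  have := allBelow_spec ker_chk m hm
  rw [Bool.or_eq_true] at this
  rcases this with h0 | h1
  · exact Nat.eq_of_beq_eq_true h0
  · obtain ⟨p, hp, hne⟩ := List.any_eq_true.1 h1
    obtain ⟨x, -, rfl⟩ := List.mem_map.1 hp
    have e := PP_spec M (maskList m) (gp x)
    rw [show PP M (maskList m) = 1 from h, Equiv.Perm.one_apply] at e
    rw [show ((gp x : Fin 3510) : Nat) = genPt x from rfl] at e
    rw [← e, Nat.beq_refl] at hne
    exact absurd hne (by decide)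

theorem xsel_lt (cs : List (Fin 22)) (m : Nat) : xsel (colM cs) m < 1024 := by
  rw [xsel]
  induction ten with
  | nil => simp
  | cons i l ih =>
    rw [List.foldr_cons]
    cases m.testBit i
    · exact ih
    · have h := cl_chk (cs.getD i 0)
      simp only [Bool.and_eq_true, Nat.blt_eq] at h
      exact Nat.xor_lt_two_pow (n := 10) h.1.2 ih

/-- Conjugation by a permutation sending the basis to members of the clique. -/
theorem conj_P {π : Equiv.Perm (Fin 3510)} (hπ : π ∈ AutPerm M) (cs : List (Fin 22))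
    (h : ∀ i ∈ ten, π (bpt i) = clp (cs.getD i 0)) (m : Nat) : π * P M m * π⁻¹ = P M (xsel (colM cs) m) := by
  have htau : ∀ u, π * M.act (M.tau u) * π⁻¹ = M.act (M.tau (π u)) := fun u => by
    rw [mul_inv_eq_iff_eq_mul]
    exact Equiv.ext fun v => hπ u v
  have hcl : ∀ c : Fin 22, M.act (M.tau (clp c)) = P M (cmL.getD c 0) := fun c => by
    have h := cl_chk c
    simp only [Bool.and_eq_true, Nat.beq_eq] at h
    rw [M.tau_word (clW.getD c []) (clp c) h.1.1.2]
    exact eq_of_agree M (act_mem M _) (P_mem M _) (fun u => M.act_ev _ u) (PP_spec M _) h.2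
  rw [P_eq_sel, xsel, sel]
  revert h
  generalize ten = l
  intro h
  induction l with
  | nil => simp [P_zero]
  | cons i l ih =>
    have e := ih fun k hk => h k (List.mem_cons_of_mem _ hk)
    rw [List.map_cons, List.prod_cons, List.foldr_cons]
    cases m.testBit i
    · rw [cond_false, cond_false, one_mul]
      exact e
    · rw [cond_true, cond_true, ← P_xor, ← e, show colM cs i = cmL.getD (cs.getD i 0 : Fin 22) 0 from rfl,
        ← hcl, ← h i List.mem_cons_self, ← htau]
      group

theorem cols_of_ok {p : List (Fin 14)} {cs : List (Fin 22)} (h : colsOk p cs = true) :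
    ∀ i ∈ ten, PP M p (bpt i) = clp (cs.getD i 0) := fun i hi =>
  Fin.ext ((PP_spec M p _).trans (Nat.eq_of_beq_eq_true (List.all_eq_true.1 h i hi)))

/-- The coset representative. -/
noncomputable def w (j : Nat) : Equiv.Perm (Fin 3510) := PP M (wp j)

/-- The set of the Sylow subgroup. -/
def InT (π : Equiv.Perm (Fin 3510)) : Prop := ∃ m < 1024, ∃ j < 256, π = P M m * w M j

theorem inT_one : InT M 1 :=
  ⟨0, by decide, 0, by decide, by rw [P_zero, w, path_zero, PP_nil, mul_one]⟩

theorem inT_ge (i : Fin 14) {π : Equiv.Perm (Fin 3510)} (h : InT M π) : InT M (ge M i * π) := by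
  obtain ⟨m, hm, j, hj, rfl⟩ := h
  induction i using Fin.addCases (m := 4) (n := 10) with
  | left g =>
    have hg := gcol_chk g
    have hn := allBelow_spec (nxt_chk g) j hj
    set m' := Nat.shiftRight (nxt g j) 8
    set j' := Nat.land (nxt g j) 255
    have hconj := conj_P M (ge_mem M (Fin.castLE (by decide) g)) (gcolL.getD g [])
      (fun i hi => by simpa [PP] using cols_of_ok M hg i hi) m
    have hw : ge M (Fin.castLE (by decide) g) * w M j = P M m' * w M j' := by
      have := PP_eq M hn
      rwa [PP_cons, PP_append] at this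
    have hm' : m' < 1024 := by
      show Nat.shiftRight (Nat.land _ 262143) 8 < 1024
      rw [show ∀ a b, Nat.land a b = a &&& b from fun _ _ => rfl, show ∀ a, Nat.shiftRight a 8 = a >>> 8 from fun _ => rfl,
        Nat.shiftRight_eq_div_pow, show (262143 : Nat) = 2 ^ 18 - 1 from rfl, Nat.and_two_pow_sub_one_eq_mod]
      omega
    have hj' : j' < 256 := by
      show Nat.land _ 255 < 256
      rw [show ∀ a b, Nat.land a b = a &&& b from fun _ _ => rfl, show (255 : Nat) = 2 ^ 8 - 1 from rfl,
        Nat.and_two_pow_sub_one_eq_mod]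
      omega
    refine ⟨Nat.xor (xsel (colM (gcolL.getD g [])) m) m', Nat.xor_lt_two_pow (n := 10) (xsel_lt _ _) hm', j', hj', ?_⟩
    rw [← P_xor, mul_assoc (P M _) (P M m'), ← hw, ← hconj]
    show ge M (Fin.castLE (by decide : 4 ≤ 14) g) * _ = _
    group
  | right k =>
    have hk : ge M (Fin.natAdd 4 k) = P M (2 ^ (k : Nat)) := by
      rw [P, show maskList (2 ^ (k : Nat)) = [Fin.natAdd 4 k] from (show ∀ k : Fin 10,
        maskList (2 ^ (k : Nat)) = [Fin.natAdd 4 k] by decide +kernel) k]
      simp [PP]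
    refine ⟨Nat.xor (2 ^ (k : Nat)) m, Nat.xor_lt_two_pow (n := 10) (Nat.pow_lt_pow_right (by decide) k.2) hm, j, hj, ?_⟩
    rw [← P_xor, hk, mul_assoc]

theorem inT_PP (l : List (Fin 14)) {π : Equiv.Perm (Fin 3510)} (h : InT M π) : InT M (PP M l * π) := by
  induction l with
  | nil => rwa [PP_nil, one_mul]
  | cons i l ih =>
    rw [PP_cons, mul_assoc]
    exact inT_ge M i ih

theorem inT_mul {a b : Equiv.Perm (Fin 3510)} (ha : InT M a) (hb : InT M b) : InT M (a * b) := by
  obtain ⟨m, -, j, -, rfl⟩ := ha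
  rw [P, w, ← PP_append]
  exact inT_PP M _ hb

/-- A Sylow 2-subgroup of the automorphism group. -/
def subT : Subgroup (Equiv.Perm (Fin 3510)) where
  carrier := {π | InT M π}
  one_mem' := inT_one M
  mul_mem' := inT_mul M
  inv_mem' := fun {a} ha => by
    have hp : ∀ n : Nat, InT M (a ^ n) := by
      intro n
      induction n with
      | zero => rw [pow_zero]; exact inT_one M
      | succ n ih => rw [pow_succ]; exact inT_mul M ih ha
    show InT M a⁻¹
    rw [show a⁻¹ = a ^ (orderOf a - 1) from inv_eq_of_mul_eq_one_right (by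
      rw [← pow_succ', Nat.sub_add_cancel (orderOf_pos a), pow_orderOf_eq_one])]
    exact hp _

theorem subT_le : subT M ≤ AutPerm M := by
  rintro π ⟨m, -, j, -, rfl⟩
  exact mul_mem (P_mem M m) (PP_mem M _)

theorem clique_image (l : List (Fin 14)) (c : Fin 22) : ∃ c', PP M l (clp c) = clp c' := by
  induction l with
  | nil => exact ⟨c, rfl⟩
  | cons i l ih =>
    obtain ⟨c', hc'⟩ := ih
    obtain ⟨c'', -, h⟩ := List.any_eq_true.1 (clique_chk i c')
    refine ⟨c'', ?_⟩
    rw [PP_cons, Equiv.Perm.mul_apply, hc']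
    exact Fin.ext ((ge_spec M i _).trans (Nat.eq_of_beq_eq_true h))

theorem natCard_subT : Nat.card (subT M) = 2 ^ 18 := by
  let f : Fin 1024 × Fin 256 → Equiv.Perm (Fin 3510) := fun x => P M x.1 * w M x.2
  have e : ((subT M : Subgroup (Equiv.Perm (Fin 3510))) : Set (Equiv.Perm (Fin 3510))) = Set.range f := by
    ext π
    constructor
    · rintro ⟨m, hm, j, hj, rfl⟩
      exact ⟨(⟨m, hm⟩, ⟨j, hj⟩), rfl⟩
    · rintro ⟨x, rfl⟩
      exact ⟨x.1, x.1.2, x.2, x.2.2, rfl⟩
  have hinj : Function.Injective f := by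
    rintro ⟨m, j⟩ ⟨m', j'⟩ h
    simp only [f] at h
    have hpt : ∀ c, evalP (wp j) (cl c) = evalP (wp j') (cl c) := fun c => by
      obtain ⟨d, hd⟩ := clique_image M (wp j) c
      obtain ⟨d', hd'⟩ := clique_image M (wp j') c
      have := Equiv.congr_fun h (clp c)
      rw [Equiv.Perm.mul_apply, Equiv.Perm.mul_apply, show w M j (clp c) = _ from hd,
        show w M j' (clp c) = _ from hd', P_fix, P_fix] at this
      rw [show cl c = ((clp c : Fin 3510) : Nat) from rfl, ← PP_spec M, ← PP_spec M, hd, hd', this]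
    have hkey : keyOf j = keyOf j' := by
      rw [keyOf, keyOf]
      congr 1
      funext c acc
      rw [hpt]
    rw [Nat.eq_of_beq_eq_true (allBelow_spec key_chk j j.2), Nat.eq_of_beq_eq_true (allBelow_spec key_chk j' j'.2),
      List.getD_eq_getElem _ _ (by rw [key_nodup.2]; exact j.2),
      List.getD_eq_getElem _ _ (by rw [key_nodup.2]; exact j'.2)] at hkey
    have hjj : (j : Nat) = j' := (key_nodup.1.getElem_inj_iff).1 hkey
    obtain rfl : j = j' := Fin.ext hjj
    have h0 := mul_right_cancel h
    have hx := eq_zero_of_P M (m := Nat.xor m m') (Nat.xor_lt_two_pow (n := 10) m.2 m'.2) (by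
      rw [← P_xor, h0, P_xor, show Nat.xor (m' : Nat) m' = 0 from Nat.xor_self _, P_zero])
    obtain rfl : m = m' := Fin.ext (Nat.xor_eq_zero_iff.1 hx)
    rfl
  rw [← SetLike.coe_sort_coe, e, Nat.card_range_of_injective hinj, Nat.card_prod, Nat.card_fin, Nat.card_fin]
  rfl

include M in
theorem natCard_autPerm : Nat.card (AutPerm M) = 2 * 64561751654400 := by
  haveI : Finite G := Nat.finite_of_card_ne_zero (by rw [Three.natCard_G M]; norm_num)
  rw [Nat.card_congr (autEquiv M).toEquiv, Nat.card_congr (MulAut.congr M.iso).toEquiv,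
    ← Subgroup.card_mul_index (Cfsg.Inn K), show (Cfsg.Inn K).index = 2 from CfsgLib.SporadicOut.Fi22.natCard_out_fi22G,
    mul_comm, ← Three.natCard_G M, Nat.card_congr M.iso.toEquiv]
  congr 1
  refine (Nat.card_congr (MonoidHom.ofInjective (f := (MulAut.conj : K →* MulAut K)) ?_).toEquiv).symm
  intro a b h
  have hc : MulAut.conj (M.iso.symm a) = MulAut.conj (M.iso.symm b) := MulEquiv.ext fun x => M.iso.injective (by
    simpa using DFunLike.congr_fun h (M.iso x))
  rw [← toAut_act M, ← toAut_act M] at hc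
  exact M.iso.symm.injective (M.act_injective (congrArg Subtype.val (toAut_injective M hc)))

theorem sign_PP (l : List (Fin 14)) : Equiv.Perm.sign (PP M l) = bif odd l then -1 else 1 := by
  induction l with
  | nil => simp [PP_nil, odd]
  | cons i l ih =>
    rw [PP_cons, map_mul, ih, show odd (i :: l) = (bif Nat.beq i 0 then !(odd l) else odd l) from rfl]
    induction i using Fin.addCases (m := 4) (n := 10) with
    | left g =>
      rw [ge, Fin.addCases_left]
      fin_cases g
      · simp only [Matrix.cons_val_zero, Fin.zero_eta, sign_sPerm]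
        cases odd l <;> rfl
      all_goals simp [sign_act, Nat.beq]
    | right k =>
      rw [ge_basis, sign_act, one_mul, show Nat.beq ((Fin.natAdd 4 k : Fin 14) : Nat) 0 = false from by
        cases hb : Nat.beq ((Fin.natAdd 4 k : Fin 14) : Nat) 0
        · rfl
        · have := Nat.eq_of_beq_eq_true hb
          simp at this, cond_false]

theorem sign_P (m : Nat) : Equiv.Perm.sign (P M m) = 1 := by
  rw [P_eq_sel, sel]
  generalize ten = l
  induction l with
  | nil => rw [List.map_nil, List.prod_nil, Equiv.Perm.sign_one]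
  | cons i l ih =>
    rw [List.map_cons, List.prod_cons, map_mul, ih, mul_one]
    cases hb : m.testBit i
    · rw [cond_false, Equiv.Perm.sign_one]
    · rw [cond_true, sign_act]

/-- The targets. -/
noncomputable def target (t : Nat) : Equiv.Perm (Fin 3510) :=
  bif Nat.beq t 0 then sPerm else bif Nat.beq t 1 then sPerm * M.act (M.tau aP) else sPerm * M.act (M.tau aP * M.tau bP)

theorem target_mem (t : Nat) : target M t ∈ AutPerm M := by
  unfold target
  cases Nat.beq t 0 <;> cases Nat.beq t 1 <;> simp only [cond_true, cond_false]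
  exacts [mul_mem (sPerm_mem M) (act_mem M _), mul_mem (sPerm_mem M) (act_mem M _), sPerm_mem M, sPerm_mem M]

theorem target_spec (t : Nat) (u : Fin 3510) : ((target M t u : Fin 3510) : Nat) = tgt t u := by
  unfold target tgt
  have ha : ∀ v, ((M.act (M.tau aP) v : Fin 3510) : Nat) = tr (memWord wA) v := fun v => by
    rw [M.tau_word wA aP wAB_chk.1, M.act_ev, memWord]
  have hb : ∀ v, ((M.act (M.tau bP) v : Fin 3510) : Nat) = tr (memWord wB) v := fun v => by
    rw [M.tau_word wB bP wAB_chk.2, M.act_ev, memWord]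
  cases Nat.beq t 0 <;> cases Nat.beq t 1 <;>
    simp only [cond_true, cond_false, Equiv.Perm.mul_apply, map_mul, sPerm_val, ha, hb]

/-- An involution of odd sign in the subgroup is conjugate to a target. -/
theorem classify_subT {π : Equiv.Perm (Fin 3510)} (hT : π ∈ subT M) (h2 : π * π = 1)
    (hs : Equiv.Perm.sign π = -1) : ∃ t < 3, ∃ c ∈ AutPerm M, c * π * c⁻¹ = target M t := by
  obtain ⟨m, hm, j, hj, rfl⟩ := hT
  have hi := allBelow_spec info_chk j hj
  generalize infoL.getD j Info.inner = I at hi
  cases I with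
  | inner =>
    exfalso
    simp only [infoOk, Bool.not_eq_true'] at hi
    rw [map_mul, sign_P, w, sign_PP, hi, cond_false, one_mul] at hs
    exact absurd hs (by decide)
  | moved c =>
    exfalso
    simp only [infoOk, Bool.not_eq_true'] at hi
    obtain ⟨c', hc'⟩ := clique_image M (wp j) c
    obtain ⟨c'', hc''⟩ := clique_image M (wp j) c'
    have := Equiv.congr_fun h2 (clp c)
    simp only [w, Equiv.Perm.mul_apply, Equiv.Perm.one_apply, hc', hc'', P_fix] at this
    have e : ((PP M (wp j ++ wp j) (clp c) : Fin 3510) : Nat) = cl c := by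
      rw [PP_append, Equiv.Perm.mul_apply, hc', hc'', this]
      rfl
    rw [PP_spec, show ((clp c : Fin 3510) : Nat) = cl c from rfl] at e
    rw [e, Nat.beq_refl] at hi
    exact absurd hi (by decide)
  | sol q cs fLit leaves off =>
    simp only [infoOk, Bool.and_eq_true, Nat.blt_eq] at hi
    obtain ⟨⟨⟨⟨hcols, hq⟩, hsq⟩, hsol⟩, hlf⟩ := hi
    have hmem : w M j ∈ AutPerm M := PP_mem M _
    have hconj : ∀ x, w M j * P M x = P M (xsel (colM cs) x) * w M j := fun x =>
      mul_inv_eq_iff_eq_mul.1 (conj_P M hmem cs (cols_of_ok M hcols) x)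
    have hww : w M j * w M j = P M q := by rw [w, ← PP_append]; exact PP_eq M hsq
    have hx : Nat.xor (Nat.xor m (xsel (colM cs) m)) q = 0 := by
      refine eq_zero_of_P M (Nat.xor_lt_two_pow (n := 10) (Nat.xor_lt_two_pow (n := 10) hm (xsel_lt _ _)) hq) ?_
      rw [← P_xor, ← P_xor, ← hww, ← h2, mul_assoc (P M m) (w M j), ← mul_assoc (w M j) (P M m), hconj]
      group
    have hl := allBelow_spec hsol m hm
    rw [hx, Nat.beq_refl, cond_true] at hl
    set f := fOf fLit m
    set e := Nat.xor (Nat.xor m f) (xsel (colM cs) f)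
    obtain ⟨e', he', heq⟩ := List.any_eq_true.1 hl
    obtain rfl : e = e' := Nat.eq_of_beq_eq_true heq
    obtain ⟨k, hk, hke⟩ := List.getElem_of_mem he'
    have hlk := List.all_eq_true.1 hlf k (List.mem_range.2 hk)
    simp only [Bool.and_eq_true, Nat.beq_eq, Nat.blt_eq, List.getD_eq_getElem _ _ hk, hke] at hlk
    obtain ⟨⟨hl1, hl2⟩, hlt⟩ := hlk
    set x := leafL.getD (off + k) (0, 0, [], 0) with hx'
    have hxm : x ∈ leafL := by rw [hx', List.getD_eq_getElem _ _ hlt]; exact List.getElem_mem hlt
    have hleaf := List.all_eq_true.1 leaf_chk x hxm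
    simp only [leafOk, hl1, hl2] at hleaf
    set r := rootL.getD x.2.2.2 (0, [])
    have hr : r.1 < 3 := by
      by_cases hb : x.2.2.2 < rootL.length
      · have := List.all_eq_true.1 root_chk r (by
          simp only [r, List.getD_eq_getElem _ _ hb]
          exact List.getElem_mem hb)
        rwa [Nat.blt_eq] at this
      · simp only [r, List.getD_eq_default _ _ (Nat.le_of_not_lt hb)]
        decide
    set C := M.act (M.ev r.2) * PP M x.2.2.1
    have hC : C ∈ AutPerm M := mul_mem (act_mem M _) (PP_mem M _)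
    have key : C * (P M e * w M j) = target M r.1 * C := by
      refine eq_of_agree M (mul_mem hC (mul_mem (P_mem M _) hmem)) (mul_mem (target_mem M _) hC) ?_ ?_ hleaf
      · intro u
        rw [P, w, ← PP_append, Equiv.Perm.mul_apply, Equiv.Perm.mul_apply, M.act_ev, PP_spec, PP_spec]
      · intro u
        rw [Equiv.Perm.mul_apply, target_spec, Equiv.Perm.mul_apply, M.act_ev, PP_spec]
    refine ⟨r.1, hr, C * P M f, mul_mem hC (P_mem M _), ?_⟩
    have hf : P M f * (P M m * w M j) * P M f = P M e * w M j := by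
      rw [show e = Nat.xor (Nat.xor f m) (xsel (colM cs) f) from by
        show Nat.xor (Nat.xor m f) _ = _
        rw [show Nat.xor m f = Nat.xor f m from Nat.xor_comm m f], ← P_xor, ← P_xor, mul_assoc _ (P M (xsel _ f)),
        ← hconj]
      group
    rw [mul_inv_rev, P_inv, show C * P M f * (P M m * w M j) * (P M f * C⁻¹) =
      C * (P M f * (P M m * w M j) * P M f) * C⁻¹ by group, hf, key]
    group

end Classify

variable {G : Type*} [Group G] {D : Set G}

open Classify in
/-- An involution of odd sign is conjugate to one of three. -/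
theorem classify (M : Model G D) : ∀ π ∈ AutPerm M, π * π = 1 → Equiv.Perm.sign π = -1 →
    ∃ c ∈ AutPerm M, c * π * c⁻¹ = sPerm ∨ c * π * c⁻¹ = sPerm * M.act (M.tau aP) ∨
      c * π * c⁻¹ = sPerm * M.act (M.tau aP * M.tau bP) := by
  intro π hπ h2 hs
  haveI : Fact (Nat.Prime 2) := ⟨Nat.prime_two⟩
  let T' : Subgroup (AutPerm M) := (subT M).subgroupOf (AutPerm M)
  have hT : Nat.card T' = 2 ^ 18 := by
    rw [Nat.card_congr (Subgroup.subgroupOfEquivOfLe (subT_le M)).toEquiv, natCard_subT]
  let syl : Sylow 2 (AutPerm M) := Sylow.ofCard T' (by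
    rw [hT, natCard_autPerm M, Nat.factorization_def _ Nat.prime_two,
      show 2 * 64561751654400 = 2 ^ 18 * 492567075 by norm_num, padicValNat.mul (by norm_num) (by norm_num),
      padicValNat.prime_pow, padicValNat.eq_zero_of_not_dvd (by norm_num : ¬ 2 ∣ 492567075)])
  have hp : IsPGroup 2 (Subgroup.zpowers (⟨π, hπ⟩ : AutPerm M)) := by
    rintro ⟨x, hx⟩
    refine ⟨1, Subtype.ext ?_⟩
    obtain ⟨n, rfl⟩ := Subgroup.mem_zpowers_iff.1 hx
    show ((⟨π, hπ⟩ : AutPerm M) ^ n) ^ (2 ^ 1) = 1
    rw [pow_one, ← zpow_natCast, ← zpow_mul, mul_comm, zpow_mul, zpow_natCast,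
      show (⟨π, hπ⟩ : AutPerm M) ^ 2 = 1 from Subtype.ext (by simpa [pow_two] using h2), one_zpow]
  obtain ⟨S, hS⟩ := hp.exists_le_sylow
  obtain ⟨c, hc⟩ := MulAction.exists_smul_eq (AutPerm M) S syl
  have hmem : c * ⟨π, hπ⟩ * c⁻¹ ∈ T' := by
    rw [show T' = (syl : Subgroup (AutPerm M)) from rfl, ← hc]
    exact Subgroup.mem_map.2 ⟨_, hS (Subgroup.mem_zpowers _), rfl⟩
  set c' : Equiv.Perm (Fin 3510) := (c : Equiv.Perm (Fin 3510))
  obtain ⟨t, ht, d, hd, he⟩ := classify_subT M (π := c' * π * c'⁻¹) (Subgroup.mem_subgroupOf.1 hmem)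
    (by rw [show c' * π * c'⁻¹ * (c' * π * c'⁻¹) = c' * (π * π) * c'⁻¹ by group, h2]; group)
    (by rw [map_mul, map_mul, map_inv, hs]; simp [mul_comm])
  refine ⟨d * c', mul_mem hd c.2, ?_⟩
  rw [show d * c' * π * (d * c')⁻¹ = d * (c' * π * c'⁻¹) * d⁻¹ by group, he]
  obtain rfl | rfl | rfl : t = 0 ∨ t = 1 ∨ t = 2 := by omega
  exacts [Or.inl rfl, Or.inr (Or.inl rfl), Or.inr (Or.inr rfl)]

end CfsgLib.SporRecognition.F22Model.Outer
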