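import Cfsg.Agent.Lib.SporRecognition.F22Model.Outer.ClassifyDefs

/-!
The kernel checks.
-/

set_option autoImplicit false
set_option maxRecDepth 100000
set_option Elab.async false

namespace CfsgLib.SporRecognition.F22Model.Outer.Classify

open CfsgLib.SporRecognition.CosetCert

theorem cl_chk : ∀ c : Fin 22, (Nat.blt (cl c) 3510 && Nat.beq (tr (clW.getD c []) 0) (cl c) &&
    Nat.blt (cmL.getD c 0) 1024 && agree (tr (memWord (clW.getD c []))) (evalP (maskList (cmL.getD c 0)))) = true := by
  decide +kernel

theorem bwd_chk : ∀ i : Fin 10, Nat.beq (tr (bwd i) 0) (bv i) = true := by decide +kernel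

theorem fix_chk : ∀ i : Fin 10, ∀ c : Fin 22, Nat.beq (tab (Fin.natAdd 4 i) (cl c)) (cl c) = true := by decide +kernel

theorem clique_chk : ∀ g : Fin 14, ∀ c : Fin 22,
    ((List.finRange 22).any fun c' => Nat.beq (tab g (cl c)) (cl c')) = true := by decide +kernel

theorem gcol_chk : ∀ g : Fin 4, colsOk [Fin.castLE (by decide) g] (gcolL.getD g []) = true := by decide +kernel

theorem ker_chk : allBelow 10 1024 (fun m => Nat.beq m 0 ||
    nineL.any (fun p => !(Nat.beq (evalP (maskList m) p) p))) = true := by decide +kernel

theorem nxt_chk : ∀ g : Fin 4, allBelow 8 256 (fun j =>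
    agree (evalP (Fin.castLE (by decide) g :: wp j))
      (evalP (maskList (Nat.shiftRight (nxt g j) 8) ++ wp (Nat.land (nxt g j) 255)))) = true := by decide +kernel

theorem path_zero : wp 0 = [] := by decide +kernel

theorem key_chk : allBelow 8 256 (fun j => Nat.beq (keyOf j) (keyL.getD j 0)) = true := by decide +kernel

theorem key_nodup : keyL.Nodup ∧ keyL.length = 256 := by decide +kernel

theorem info_chk : allBelow 8 256 (fun j => infoOk j (infoL.getD j .inner)) = true := by decide +kernel

theorem leaf_chk : leafL.all leafOk = true := by decide +kernel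

theorem root_chk : rootL.all (fun r => Nat.blt r.1 3) = true := by decide +kernel

end CfsgLib.SporRecognition.F22Model.Outer.Classify
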