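import Cfsg.Agent.Lib.SporRecognition.F22Model.Outer.ClassifyData

/-!
The generators of the Sylow 2-subgroup as tables, and the checks.
-/

set_option autoImplicit false
set_option maxRecDepth 100000
set_option Elab.async false

namespace CfsgLib.SporRecognition.F22Model.Outer.Classify

open CfsgLib.SporRecognition.CosetCert

/-- The ten indices. -/
def ten : List (Fin 10) := [0, 1, 2, 3, 4, 5, 6, 7, 8, 9]

/-- The nine probe points. -/
def nineL : List Nat := ([.a, .b, .c, .d, .e, .f, .g, .h, .i] : List Gen).map genPt

/-- The point of the clique. -/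
def cl (c : Fin 22) : Nat := clL.getD c 0

/-- The word of a member of the basis. -/
def bwd (i : Fin 10) : Word :=
  match (i : Nat) with
  | 0 => bw0 | 1 => bw1 | 2 => bw2 | 3 => bw3 | 4 => bw4
  | 5 => bw5 | 6 => bw6 | 7 => bw7 | 8 => bw8 | _ => bw9

/-- The point of a member of the basis. -/
def bv (i : Fin 10) : Nat := cl (basI.getD i 0)

/-- The tables of the fourteen generators. -/
noncomputable def tab (i : Fin 14) : Nat → Nat :=
  match (i : Nat) with
  | 0 => sT | 1 => H1 | 2 => H2 | 3 => H3 | 4 => E0 | 5 => E1 | 6 => E2 | 7 => E3 | 8 => E4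
  | 9 => E5 | 10 => E6 | 11 => E7 | 12 => E8 | _ => E9

/-- The table of a list of generators, the last acting first. -/
noncomputable def evalP (l : List (Fin 14)) (u : Nat) : Nat := l.foldr (fun i v => tab i v) u

/-- The basis members in a mask. -/
def maskList (m : Nat) : List (Fin 14) := (ten.filter fun (i : Fin 10) => m.testBit i).map (Fin.natAdd 4)

/-- The exclusive or of the selected masks. -/
def xsel (col : Fin 10 → Nat) (m : Nat) : Nat :=
  ten.foldr (fun (i : Fin 10) acc => bif m.testBit i then Nat.xor (col i) acc else acc) 0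

/-- The masks of a list of clique members. -/
def colM (cs : List (Fin 22)) (i : Fin 10) : Nat := cmL.getD (cs.getD i 0 : Fin 22) 0

/-- A path maps the basis to the listed clique members. -/
noncomputable def colsOk (p : List (Fin 14)) (cs : List (Fin 22)) : Bool :=
  ten.all fun i => Nat.beq (evalP p (bv i)) (cl (cs.getD i 0))

/-- Two functions agree at the nine points. -/
noncomputable def agree (f f' : Nat → Nat) : Bool := nineL.all fun p => Nat.beq (f p) (f' p)

/-- The path of a coset. -/
def wp (j : Nat) : List (Fin 14) := pathL.getD j []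

/-- Parity of the number of outer letters. -/
def odd (l : List (Fin 14)) : Bool := l.foldr (fun i b => bif Nat.beq i 0 then !b else b) false

/-- The key of a coset. -/
noncomputable def keyOf (j : Nat) : Nat :=
  selL.foldr (fun c acc => Nat.add (evalP (wp j) (cl c)) (Nat.mul 4096 acc)) 0

/-- The product of a generator with a coset. -/
noncomputable def nxt (g j : Nat) : Nat :=
  Nat.land (Nat.shiftRight nxtLit (Nat.mul 18 (Nat.add (Nat.mul 256 g) j))) 262143

/-- The table of a target. -/
noncomputable def tgt (t u : Nat) : Nat :=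
  bif Nat.beq t 0 then sT u
  else bif Nat.beq t 1 then sT (tr (memWord wA) u)
  else sT (tr (memWord wA) (tr (memWord wB) u))

/-- A leaf is carried to its target. -/
noncomputable def leafOk (x : Nat × Nat × List (Fin 14) × Nat) : Bool :=
  let r := rootL.getD x.2.2.2 (0, [])
  agree (fun p => tr r.2 (evalP x.2.2.1 (evalP (maskList x.2.1 ++ wp x.1) p)))
    (fun p => tgt r.1 (tr r.2 (evalP x.2.2.1 p)))

/-- The mask of a conjugator to a leaf. -/
def fOf (fLit e : Nat) : Nat := Nat.land (Nat.shiftRight fLit (Nat.mul 10 e)) 1023

/-- The checks of a coset. -/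
noncomputable def infoOk (j : Nat) : Info → Bool
  | .inner => !(odd (wp j))
  | .moved c => !(Nat.beq (evalP (wp j ++ wp j) (cl c)) (cl c))
  | .sol q cs fLit leaves off =>
    colsOk (wp j) cs && Nat.blt q 1024 && agree (evalP (wp j ++ wp j)) (evalP (maskList q)) &&
      allBelow 10 1024 (fun e =>
        bif Nat.beq (Nat.xor (Nat.xor e (xsel (colM cs) e)) q) 0 then
          leaves.any (Nat.beq (Nat.xor (Nat.xor e (fOf fLit e)) (xsel (colM cs) (fOf fLit e))))
        else true) &&
      (List.range leaves.length).all (fun k =>
        Nat.beq (leafL.getD (off + k) (0, 0, [], 0)).1 j &&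
          Nat.beq (leafL.getD (off + k) (0, 0, [], 0)).2.1 (leaves.getD k 0) && Nat.blt (off + k) leafL.length)

end CfsgLib.SporRecognition.F22Model.Outer.Classify
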