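import Cfsg.Agent.Lib.SporRecognition.F22Model.Outer.Rigid
import Cfsg.Agent.Lib.SporadicB.Fi22.OPlus.Blocks

/-!
The fixed point sets of the three outer involutions.
-/

set_option autoImplicit false
set_option linter.constructorNameAsVariable false
set_option maxRecDepth 100000
set_option Elab.async false

namespace CfsgLib.SporRecognition.F22Model.Outer

open CfsgLib.SporRecognition.CosetCert
open CfsgLib.SporadicB.Fi22 (OPlus.pF OPlus.pt)

theorem fixS_chk : allBelow 9 360 (fun k => Nat.beq (sT (OPlus.pt k)) (OPlus.pt k)) = true := by decide +kernel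

theorem countA : countLab 12 3510 (fun u => bif Nat.beq (sT (tr (memWord wA) u)) u then 1 else 0) 1 = 64 := by
  decide +kernel

theorem countB : countLab 12 3510 (fun u => bif Nat.beq (sT (tr (memWord wA ++ memWord wB) u)) u then 1 else 0) 1 = 72 := by
  decide +kernel

theorem fixA_chk : (aP :: (List.finRange 63).map qA).all
    (fun x => Nat.beq (tr (memWord wA) x) x && Nat.beq (sT x) x) = true := by decide +kernel

theorem fixB_chk : ((List.finRange 72).map qB).all
    (fun x => Nat.beq (sT (tr (memWord wA ++ memWord wB) x)) x) = true := by decide +kernel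

theorem aP_notMem : (aP : Nat) ∉ qAL := by decide +kernel

variable {G : Type*} [Group G] {D : Set G} (M : Model G D)

theorem saPerm_val (u : Fin 3510) : ((saPerm M u : Fin 3510) : Nat) = sT (tr (memWord wA) u) := by
  rw [saPerm, Equiv.Perm.mul_apply, sPerm_val, tau_aP, M.act_ev]

theorem sabPerm_val (u : Fin 3510) : ((sabPerm M u : Fin 3510) : Nat) = sT (tr (memWord wA ++ memWord wB) u) := by
  rw [sabPerm, Equiv.Perm.mul_apply, sPerm_val, tau_aP, tau_bP, ← M.ev_append, M.act_ev]

theorem saPerm_mem : saPerm M ∈ AutPerm M := mul_mem (sPerm_mem M) (act_mem M _)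

theorem sabPerm_mem : sabPerm M ∈ AutPerm M := mul_mem (sPerm_mem M) (act_mem M _)

theorem sign_saPerm : Equiv.Perm.sign (saPerm M) = -1 := by
  rw [saPerm, map_mul, sign_sPerm, sign_act, mul_one]

theorem sign_sabPerm : Equiv.Perm.sign (sabPerm M) = -1 := by
  rw [sabPerm, map_mul, sign_sPerm, sign_act, mul_one]

theorem fixC_saPerm : fixC (saPerm M) = 64 := fixC_eq (saPerm_val M) countA

theorem fixC_sabPerm : fixC (sabPerm M) = 72 := fixC_eq (sabPerm_val M) countB

theorem sPerm_pF (k : Fin 360) : sPerm (OPlus.pF k) = OPlus.pF k :=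
  Fin.ext (Nat.eq_of_beq_eq_true (allBelow_spec fixS_chk k k.2))

theorem sPerm_aP : sPerm aP = aP := by
  have h := List.all_eq_true.1 fixA_chk aP (List.mem_cons_self ..)
  simp only [Bool.and_eq_true, Nat.beq_eq] at h
  exact Fin.ext h.2

theorem tau_aP_fix : M.act (M.tau aP) aP = aP := (M.commute_tau_iff _ _).1 (Commute.refl _)

theorem tau_aP_qA (i : Fin 63) : M.act (M.tau aP) (qA i) = qA i := by
  have h := List.all_eq_true.1 fixA_chk (qA i) (List.mem_cons_of_mem _ (List.mem_map.2 ⟨i, List.mem_finRange i, rfl⟩))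
  simp only [Bool.and_eq_true, Nat.beq_eq] at h
  exact Fin.ext (by rw [tau_aP, M.act_ev]; exact h.1)

theorem tau_qA_aP (i : Fin 63) : M.act (M.tau (qA i)) aP = aP :=
  (M.commute_tau_iff _ _).1 ((M.commute_tau_iff _ _).2 (tau_aP_qA M i)).symm

theorem sPerm_qA (i : Fin 63) : sPerm (qA i) = qA i := by
  have h := List.all_eq_true.1 fixA_chk (qA i) (List.mem_cons_of_mem _ (List.mem_map.2 ⟨i, List.mem_finRange i, rfl⟩))
  simp only [Bool.and_eq_true, Nat.beq_eq] at h
  exact Fin.ext h.2

theorem saPerm_qA (i : Fin 63) : saPerm M (qA i) = qA i := by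
  rw [saPerm, Equiv.Perm.mul_apply, tau_aP_qA, sPerm_qA]

theorem saPerm_aP : saPerm M aP = aP := by rw [saPerm, Equiv.Perm.mul_apply, tau_aP_fix, sPerm_aP]

theorem sabPerm_qB (i : Fin 72) : sabPerm M (qB i) = qB i :=
  Fin.ext (by
    rw [sabPerm_val]
    exact Nat.eq_of_beq_eq_true (List.all_eq_true.1 fixB_chk (qB i) (List.mem_map.2 ⟨i, List.mem_finRange i, rfl⟩)))

/-- An injective list of fixed points of the right length gives all fixed points. -/
theorem fix_eq {π : Equiv.Perm (Fin 3510)} {n : Nat} (f : Fin n → Fin 3510) (hf : Function.Injective f)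
    (hfix : ∀ i, π (f i) = f i) (hn : fixC π = n) (u : Fin 3510) : π u = u ↔ ∃ i, f i = u := by
  refine ⟨fun h => ?_, fun ⟨i, e⟩ => e ▸ hfix i⟩
  have hsub : Set.range f ⊆ {u : Fin 3510 | π u = u} := by
    rintro _ ⟨i, rfl⟩; exact hfix i
  have heq := Set.eq_of_subset_of_ncard_le hsub (le_of_eq (by
    rw [show {u : Fin 3510 | π u = u}.ncard = n from hn, Set.ncard_range_of_injective hf, Nat.card_fin])) (Set.toFinite _)
  have hu : u ∈ Set.range f := heq.symm ▸ h
  exact hu

theorem fix_sPerm (u : Fin 3510) : sPerm u = u ↔ ∃ k, OPlus.pF k = u :=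
  fix_eq OPlus.pF CfsgLib.SporadicB.Fi22.OPlus.pF_injective sPerm_pF fixC_sPerm u

theorem qA_ne_aP (i : Fin 63) : qA i ≠ aP := fun h => aP_notMem (by
  rw [← h]
  simp only [qA]
  rw [List.getD_eq_getElem _ _ (by rw [qAL_chk.1]; exact i.2)]
  exact List.getElem_mem _)

theorem fix_saPerm (u : Fin 3510) : saPerm M u = u ↔ u = aP ∨ ∃ i, qA i = u := by
  rw [fix_eq (Fin.cons aP qA : Fin 64 → Fin 3510) (Fin.cons_injective_iff.2 ⟨fun ⟨i, h⟩ => qA_ne_aP i h, qA_injective⟩)
    (fun i => by
      refine Fin.cases ?_ ?_ i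
      · exact saPerm_aP M
      · exact saPerm_qA M) (fixC_saPerm M) u, Fin.exists_fin_succ]
  simp [eq_comm]

theorem fix_sabPerm (u : Fin 3510) : sabPerm M u = u ↔ ∃ i, qB i = u :=
  fix_eq qB qB_injective (sabPerm_qB M) (fixC_sabPerm M) u

theorem commute_of_fix {π : Equiv.Perm (Fin 3510)} (h : π ∈ AutPerm M) {u : Fin 3510} (hu : π u = u) :
    Commute π (M.act (M.tau u)) :=
  Equiv.ext fun v => by rw [Equiv.Perm.mul_apply, Equiv.Perm.mul_apply, h, hu]

theorem fix_image {π : Equiv.Perm (Fin 3510)} {g : G} (h : Commute π (M.act g)) {u : Fin 3510} (hu : π u = u) :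
    π (M.act g u) = M.act g u := by
  rw [← Equiv.Perm.mul_apply, h.eq, Equiv.Perm.mul_apply, hu]

end CfsgLib.SporRecognition.F22Model.Outer
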