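import Cfsg.Agent.Lib.SporRecognition.F22Model.Outer.FixSets

/-!
The elements commuting with the second outer involution form the subgroup generated at the 63 points.
-/

set_option autoImplicit false
set_option linter.constructorNameAsVariable false
set_option maxRecDepth 100000
set_option Elab.async false

namespace CfsgLib.SporRecognition.F22Model.Outer

open CfsgLib.SporRecognition.CosetCert

theorem nonadjA_chk : (List.range 63).all (fun i => (List.range 63).any (fun k => !(Nat.beq (pA i k) k))) = true := by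
  decide +kernel

theorem vA_chk : vPtA ∉ qAL ∧ vPtA ≠ aP ∧ vBitA.contains false = true ∧ vBitA.length = vSelA.length ∧
    vClsA.all (fun c => Nat.beq c vPtA || Nat.beq c (tr (memWord wA) vPtA) || Nat.beq c (sT (tr (memWord wA) vPtA)) ||
      Nat.beq c (sT vPtA)) = true := by decide +kernel

theorem fanoA_chk : keyEq (([0, 1, 2, 4, 14, 36, 46] : List Nat).flatMap fun i => memWord (qAW.getD i [])) (memWord wA) = true := by
  decide +kernel

/-- The points of the first certificate. -/
def LA (i : Nat) : Fin 3510 := if h : i < 63 then qA ⟨i, h⟩ else aP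

theorem LA_eq {i : Nat} (hi : i < 63) : LA i = qA ⟨i, hi⟩ := dif_pos hi

variable {G : Type*} [Group G] {D : Set G} (M : Model G D)

theorem pA_spec {i k : Nat} (hi : i < 63) (hk : k < 63) :
    pA i k < 63 ∧ M.act (M.tau (LA i)) (LA k) = LA (pA i k) := by
  have h := allBelow_spec (allBelow_spec pA_chk i hi) k hk
  simp only [Bool.and_eq_true, Nat.blt_eq, Nat.beq_eq] at h
  refine ⟨h.1, Fin.ext ?_⟩
  rw [LA_eq hi, LA_eq hk, LA_eq h.1, tau_qA, M.act_ev]
  exact h.2

theorem LA_inj (i j : Nat) (hi : i < 63) (hj : j < 63) (h : LA i = LA j) : i = j := by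
  rw [LA_eq hi, LA_eq hj] at h
  exact congrArg Fin.val (qA_injective h)

theorem specA : SSpec M dataA LA (fun i => M.tau (LA i)) where
  inj := LA_inj
  img i hi k hk := pA_spec M hi hk
  rowsLt p hp := List.mem_range.1 hp
  adjEq p hp x hx := by
    obtain ⟨h1, h2⟩ := pA_spec M (List.mem_range.1 hp) hx
    show Nat.beq (pA p x) x = true ↔ _
    rw [h2, Nat.beq_eq]
    exact ⟨fun h => by rw [h], fun h => LA_inj _ _ h1 hx h⟩
  prodEq i j k hi hj hk h := by
    obtain ⟨-, h2⟩ := pA_spec M hi hj
    rw [h2, Nat.eq_of_beq_eq_true h]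

/-- An element commuting with the involution fixes `aP`. -/
theorem act_aP {g : G} (hg : Commute (saPerm M) (M.act g)) : M.act g aP = aP := by
  rcases (fix_saPerm M _).1 (fix_image M hg (saPerm_aP M)) with h | ⟨i, hi⟩
  · exact h
  exfalso
  obtain ⟨k, hk, hne⟩ := List.any_eq_true.1 (List.all_eq_true.1 nonadjA_chk i (List.mem_range.2 i.2))
  rw [List.mem_range] at hk
  have hinv : Commute (saPerm M) (M.act g⁻¹) := by rw [map_inv]; exact hg.inv_right
  have hz := fix_image M hinv (saPerm_qA M ⟨k, hk⟩)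
  have hcomm : M.act (M.tau aP) (M.act g⁻¹ (qA ⟨k, hk⟩)) = M.act g⁻¹ (qA ⟨k, hk⟩) := by
    rcases (fix_saPerm M _).1 hz with h | ⟨j, hj⟩
    · rw [h, tau_aP_fix]
    · rw [← hj, tau_aP_qA]
  have h2 := congrArg (M.act g) hcomm
  rw [M.act_tau, ← hi] at h2
  have hback : M.act g (M.act g⁻¹ (qA ⟨k, hk⟩)) = qA ⟨k, hk⟩ := by
    rw [← Equiv.Perm.mul_apply, ← map_mul, mul_inv_cancel, map_one]; rfl
  rw [hback] at h2
  obtain ⟨h3, h4⟩ := pA_spec M i.2 hk
  rw [LA_eq i.2, LA_eq hk, h2] at h4
  rw [Bool.not_eq_true', ← Bool.not_eq_true, Nat.beq_eq] at hne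
  exact hne (LA_inj _ _ h3 hk (h4.symm.trans (LA_eq hk).symm))

theorem commute_of_mem_subKa {g : G} (hg : g ∈ subKa M) : Commute (saPerm M) (M.act g) := by
  induction hg using Subgroup.closure_induction with
  | mem y hy =>
    obtain ⟨i, rfl⟩ := hy
    exact commute_of_fix M (saPerm_mem M) (saPerm_qA M i)
  | one => rw [map_one]; exact Commute.one_right _
  | mul y z _ _ h1 h2 => rw [map_mul]; exact h1.mul_right h2
  | inv y _ h1 => rw [map_inv]; exact h1.inv_right

theorem stable_of_commute {g : G} (hg : Commute (saPerm M) (M.act g)) : Stable M dataA LA g := by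
  intro i (hi : i < 63)
  have hfix := fix_image M hg (saPerm_qA M ⟨i, hi⟩)
  rcases (fix_saPerm M _).1 hfix with h | ⟨j, hj⟩
  · exfalso
    exact qA_ne_aP ⟨i, hi⟩ ((M.act g).injective (h.trans (act_aP M hg).symm))
  · exact ⟨j, j.2, by rw [LA_eq hi, LA_eq j.2]; exact hj.symm⟩

/-- An element fixing the 63 points is trivial or the member at `aP`. -/
theorem eq_of_fix_qA {g : G} (hg : ∀ i, M.act g (qA i) = qA i) : g = 1 ∨ g = M.tau aP := by
  have hv : vPtA < 3510 := by simpa using vWA_chk.1
  set v : Fin 3510 := ⟨vPtA, hv⟩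
  obtain ⟨hnm, hnaP, hfalse, hlen, hcls⟩ := vA_chk
  have hvq : ∀ i, qA i ≠ v := fun i h => hnm (by
    have h' := congrArg Fin.val h
    simp only [qA] at h'
    rw [List.getD_eq_getElem _ _ (by rw [qAL_chk.1]; exact i.2)] at h'
    rw [show vPtA = qAL[(i : Nat)]'(by rw [qAL_chk.1]; exact i.2) from h'.symm]
    exact List.getElem_mem _)
  have hsel : ∀ r, r < 6 → ∃ hs : vSelA.getD r 0 < 63,
      (vBitA.getD r false = true ↔ M.act (M.tau (qA ⟨vSelA.getD r 0, hs⟩)) v = v) := by
    intro r hr
    have hs : vSelA.getD r 0 < 63 := by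
      have := List.all_eq_true.1 vWA_chk.2.2 (vSelA.getD r 0) (by
        rw [List.getD_eq_getElem _ _ (by rw [vBitA_chk.2]; exact hr)]
        exact List.getElem_mem _)
      simpa using this
    refine ⟨hs, ?_⟩
    have h := List.all_eq_true.1 vBitA_chk.1 r (List.mem_range.2 hr)
    rw [beq_iff_eq] at h
    rw [h, Nat.beq_eq, Fin.ext_iff, tau_qA, M.act_ev]
  set u := M.act g v
  have hbits : ∀ r, r < 6 → ∃ hs : vSelA.getD r 0 < 63,
      (vBitA.getD r false = true ↔ M.act (M.tau (qA ⟨vSelA.getD r 0, hs⟩)) u = u) := by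
    intro r hr
    obtain ⟨hs, h⟩ := hsel r hr
    refine ⟨hs, h.trans ?_⟩
    rw [← (M.act g).injective.eq_iff, M.act_tau, hg]
  have huq : ∀ i, qA i ≠ u := fun i h => hvq i ((M.act g).injective (by rw [hg]; exact h))
  have hua : u ≠ aP := fun h => by
    obtain ⟨r, hr, hb⟩ := List.getElem_of_mem (List.contains_iff_mem.1 hfalse)
    have hr6 : r < 6 := by rw [hlen, vBitA_chk.2] at hr; exact hr
    obtain ⟨hs, h'⟩ := hbits r hr6
    rw [List.getD_eq_getElem _ _ hr, hb, h, tau_qA_aP] at h'
    exact absurd (h'.2 rfl) (by decide)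
  have hC : (u : Nat) ∈ vClsA := by
    have h := allBelow_spec vClsA_chk u u.2
    simp only [Bool.or_eq_true, Bool.not_eq_true', List.contains_iff_mem, Nat.beq_eq] at h
    rcases h with ((h | h) | h) | h
    · exfalso
      rw [← Bool.not_eq_true, List.all_eq_true] at h
      refine h fun r hr => ?_
      obtain ⟨hs, h'⟩ := hbits r (List.mem_range.1 hr)
      rw [beq_iff_eq, Bool.eq_iff_iff, h', Nat.beq_eq, Fin.ext_iff, tau_qA, M.act_ev]
    · exact h
    · exfalso
      obtain ⟨i, hi, e⟩ := List.getElem_of_mem h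
      refine huq ⟨i, by rw [qAL_chk.1] at hi; exact hi⟩ (Fin.ext ?_)
      show qAL.getD i 0 = _
      rw [List.getD_eq_getElem _ _ hi, e]
    · exact absurd (Fin.ext h) hua
  have hagree : ∀ π, π ∈ AutPerm M → (∀ i, π (qA i) = qA i) → π v = u → M.act g = π := by
    intro π hπ hq hπv
    refine fixed_of_clo M (act_mem M g) hπ (fun x hx => ?_) cloA (qAL ++ [vPtA]) (fun x hx => ?_) cloA_chk
    all_goals
      rcases List.mem_append.1 hx with hx | hx
      · obtain ⟨i, hi, e⟩ := List.getElem_of_mem hx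
        have hxq : x = qA ⟨i, by rw [qAL_chk.1] at hi; exact hi⟩ := Fin.ext (by
          show _ = qAL.getD i 0
          rw [List.getD_eq_getElem _ _ hi, e])
        rw [hxq, hg, hq]
      · rw [List.mem_singleton] at hx
        rw [show x = v from Fin.ext hx, hπv]
  have hs1 : ∀ π : Equiv.Perm (Fin 3510), Equiv.Perm.sign π = -1 → M.act g ≠ π := fun π h e => by
    rw [← e, sign_act] at h
    exact absurd h (by decide)
  have hc := List.all_eq_true.1 hcls u hC
  simp only [Bool.or_eq_true, Nat.beq_eq] at hc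
  rcases hc with ((h | h) | h) | h
  · exact Or.inl (M.act_injective ((hagree 1 (one_mem _) (fun _ => rfl) (Fin.ext h.symm)).trans (map_one _).symm))
  · refine Or.inr (M.act_injective (hagree _ (act_mem M _) (tau_aP_qA M) (Fin.ext ?_)))
    rw [tau_aP, M.act_ev]; exact h.symm
  · exact absurd (hagree _ (saPerm_mem M) (saPerm_qA M) (Fin.ext (by rw [saPerm_val]; exact h.symm)))
      (hs1 _ (sign_saPerm M))
  · exact absurd (hagree _ (sPerm_mem M) sPerm_qA (Fin.ext (by rw [sPerm_val]; exact h.symm)))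
      (hs1 _ sign_sPerm)

theorem tau_aP_mem : M.tau aP ∈ subKa M := by
  have key : ∀ l : List Nat, (∀ i ∈ l, i < 63) → M.ev (l.flatMap fun i => memWord (qAW.getD i [])) ∈ subKa M := by
    intro l hl
    induction l with
    | nil => rw [List.flatMap_nil, M.ev_nil]; exact one_mem _
    | cons i t ih =>
      rw [List.flatMap_cons, M.ev_append, ← tau_qA M ⟨i, hl i (List.mem_cons_self ..)⟩]
      exact mul_mem (Subgroup.subset_closure ⟨_, rfl⟩) (ih fun j hj => hl j (List.mem_cons_of_mem _ hj))
  rw [tau_aP, ← M.ev_eq fanoA_chk]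
  exact key _ (by decide)

/-- The elements commuting with the second involution. -/
theorem commute_saPerm_iff (g : G) : Commute (saPerm M) (M.act g) ↔ g ∈ subKa M := by
  refine ⟨fun hg => ?_, commute_of_mem_subKa M⟩
  obtain ⟨hfin, hrows⟩ := finA
  obtain ⟨w, hw, hfix⟩ := (specA M).exists_fix stepsA [] (fun p hp => List.mem_range.2 (by
    simpa using List.all_eq_true.1 hrows p hp)) okA g (stable_of_commute M hg) (fun p hp => absurd hp (List.not_mem_nil))
  have hwK : (w.map fun i => M.tau (LA i)).prod ∈ subKa M := Subgroup.list_prod_mem _ fun y hy => by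
    obtain ⟨i, hi, rfl⟩ := List.mem_map.1 hy
    rw [LA_eq (hw i hi)]
    exact Subgroup.subset_closure ⟨_, rfl⟩
  have hall := (specA M).fix_all (le_refl 63) hfin
    (stable_of_commute M (by rw [map_mul]; exact (commute_of_mem_subKa M hwK).mul_right hg)) hfix
  have h := eq_of_fix_qA M (g := (w.map fun i => M.tau (LA i)).prod * g)
    (fun i => by simpa only [LA_eq i.2] using hall i i.2)
  have hmem : (w.map fun i => M.tau (LA i)).prod * g ∈ subKa M := by
    rcases h with h | h <;> rw [h]
    exacts [one_mem _, tau_aP_mem M]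
  simpa using mul_mem (inv_mem hwK) hmem

end CfsgLib.SporRecognition.F22Model.Outer
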