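import Cfsg.Agent.Lib.SporRecognition.F22Model.Outer.FixSets

/-!
The elements commuting with the third outer involution form the subgroup generated at the 72 points, of order at most
3317760.
-/

set_option autoImplicit false
set_option linter.constructorNameAsVariable false
set_option maxRecDepth 100000
set_option Elab.async false

namespace CfsgLib.SporRecognition.F22Model.Outer

open CfsgLib.SporRecognition.CosetCert

theorem vB_chk : vPtB ∉ qBL ∧
    vClsB.all (fun c => Nat.beq c vPtB || Nat.beq c (sT (tr (memWord wA ++ memWord wB) vPtB))) = true := by decide +kernel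

/-- The points of the second certificate. -/
def LB (i : Nat) : Fin 3510 := if h : i < 72 then qB ⟨i, h⟩ else aP

theorem LB_eq {i : Nat} (hi : i < 72) : LB i = qB ⟨i, hi⟩ := dif_pos hi

variable {G : Type*} [Group G] {D : Set G} (M : Model G D)

theorem pB_spec {i k : Nat} (hi : i < 72) (hk : k < 72) :
    pB i k < 72 ∧ M.act (M.tau (LB i)) (LB k) = LB (pB i k) := by
  have h := allBelow_spec (allBelow_spec pB_chk i hi) k hk
  simp only [Bool.and_eq_true, Nat.blt_eq, Nat.beq_eq] at h
  refine ⟨h.1, Fin.ext ?_⟩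
  rw [LB_eq hi, LB_eq hk, LB_eq h.1, tau_qB, M.act_ev]
  exact h.2

theorem LB_inj (i j : Nat) (hi : i < 72) (hj : j < 72) (h : LB i = LB j) : i = j := by
  rw [LB_eq hi, LB_eq hj] at h
  exact congrArg Fin.val (qB_injective h)

theorem specB : SSpec M dataB LB (fun i => M.tau (LB i)) where
  inj := LB_inj
  img i hi k hk := pB_spec M hi hk
  rowsLt p hp := List.mem_range.1 hp
  adjEq p hp x hx := by
    obtain ⟨h1, h2⟩ := pB_spec M (List.mem_range.1 hp) hx
    show Nat.beq (pB p x) x = true ↔ _
    rw [h2, Nat.beq_eq]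
    exact ⟨fun h => by rw [h], fun h => LB_inj _ _ h1 hx h⟩
  prodEq i j k hi hj hk h := by
    obtain ⟨-, h2⟩ := pB_spec M hi hj
    rw [h2, Nat.eq_of_beq_eq_true h]

theorem commute_of_mem_subKb {g : G} (hg : g ∈ subKb M) : Commute (sabPerm M) (M.act g) := by
  induction hg using Subgroup.closure_induction with
  | mem y hy =>
    obtain ⟨i, rfl⟩ := hy
    exact commute_of_fix M (sabPerm_mem M) (sabPerm_qB M i)
  | one => rw [map_one]; exact Commute.one_right _
  | mul y z _ _ h1 h2 => rw [map_mul]; exact h1.mul_right h2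
  | inv y _ h1 => rw [map_inv]; exact h1.inv_right

theorem stableB_of_commute {g : G} (hg : Commute (sabPerm M) (M.act g)) : Stable M dataB LB g := by
  intro i (hi : i < 72)
  obtain ⟨j, hj⟩ := (fix_sabPerm M _).1 (fix_image M hg (sabPerm_qB M ⟨i, hi⟩))
  exact ⟨j, j.2, by rw [LB_eq hi, LB_eq j.2]; exact hj.symm⟩

/-- An element fixing the 72 points is trivial. -/
theorem eq_one_of_fix_qB {g : G} (hg : ∀ i, M.act g (qB i) = qB i) : g = 1 := by
  have hv : vPtB < 3510 := by simpa using vWB_chk.1
  set v : Fin 3510 := ⟨vPtB, hv⟩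
  obtain ⟨hnm, hcls⟩ := vB_chk
  have hvq : ∀ i, qB i ≠ v := fun i h => hnm (by
    have h' := congrArg Fin.val h
    simp only [qB] at h'
    rw [List.getD_eq_getElem _ _ (by rw [qBL_chk.1]; exact i.2)] at h'
    rw [show vPtB = qBL[(i : Nat)]'(by rw [qBL_chk.1]; exact i.2) from h'.symm]
    exact List.getElem_mem _)
  set u := M.act g v
  have hbits : ∀ r, r < 6 → ∃ hs : vSelB.getD r 0 < 72,
      (vBitB.getD r false = true ↔ M.act (M.tau (qB ⟨vSelB.getD r 0, hs⟩)) u = u) := by
    intro r hr
    have hs : vSelB.getD r 0 < 72 := by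
      have := List.all_eq_true.1 vWB_chk.2.2 (vSelB.getD r 0) (by
        rw [List.getD_eq_getElem _ _ (by rw [vBitB_chk.2]; exact hr)]
        exact List.getElem_mem _)
      simpa using this
    refine ⟨hs, ?_⟩
    have h := List.all_eq_true.1 vBitB_chk.1 r (List.mem_range.2 hr)
    rw [beq_iff_eq] at h
    have hb : vBitB.getD r false = true ↔ M.act (M.tau (qB ⟨vSelB.getD r 0, hs⟩)) v = v := by
      rw [h, Nat.beq_eq, Fin.ext_iff, tau_qB, M.act_ev]
    refine hb.trans ?_
    rw [← (M.act g).injective.eq_iff, M.act_tau, hg]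
  have hC : (u : Nat) ∈ vClsB := by
    have h := allBelow_spec vClsB_chk u u.2
    simp only [Bool.or_eq_true, Bool.not_eq_true', List.contains_iff_mem] at h
    rcases h with (h | h) | h
    · exfalso
      rw [← Bool.not_eq_true, List.all_eq_true] at h
      refine h fun r hr => ?_
      obtain ⟨hs, h'⟩ := hbits r (List.mem_range.1 hr)
      rw [beq_iff_eq, Bool.eq_iff_iff, h', Nat.beq_eq, Fin.ext_iff, tau_qB, M.act_ev]
    · exact h
    · exfalso
      obtain ⟨i, hi, e⟩ := List.getElem_of_mem h
      have hq : qB ⟨i, by rw [qBL_chk.1] at hi; exact hi⟩ = u := Fin.ext (by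
        show qBL.getD i 0 = _
        rw [List.getD_eq_getElem _ _ hi, e])
      exact hvq _ ((M.act g).injective (by rw [hg]; exact hq))
  have hagree : ∀ π, π ∈ AutPerm M → (∀ i, π (qB i) = qB i) → π v = u → M.act g = π := by
    intro π hπ hq hπv
    refine fixed_of_clo M (act_mem M g) hπ (fun x hx => ?_) cloB (qBL ++ [vPtB]) (fun x hx => ?_) cloB_chk
    all_goals
      rcases List.mem_append.1 hx with hx | hx
      · obtain ⟨i, hi, e⟩ := List.getElem_of_mem hx
        have hxq : x = qB ⟨i, by rw [qBL_chk.1] at hi; exact hi⟩ := Fin.ext (by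
          show _ = qBL.getD i 0
          rw [List.getD_eq_getElem _ _ hi, e])
        rw [hxq, hg, hq]
      · rw [List.mem_singleton] at hx
        rw [show x = v from Fin.ext hx, hπv]
  have hc := List.all_eq_true.1 hcls u hC
  simp only [Bool.or_eq_true, Nat.beq_eq] at hc
  rcases hc with h | h
  · exact M.act_injective ((hagree 1 (one_mem _) (fun _ => rfl) (Fin.ext h.symm)).trans (map_one _).symm)
  · have e := hagree _ (sabPerm_mem M) (sabPerm_qB M) (Fin.ext (by rw [sabPerm_val]; exact h.symm))
    have h1 := sign_sabPerm M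
    rw [← e, sign_act] at h1
    exact absurd h1 (by decide)

/-- The elements commuting with the third involution. -/
theorem commute_sabPerm_iff (g : G) : Commute (sabPerm M) (M.act g) ↔ g ∈ subKb M := by
  refine ⟨fun hg => ?_, commute_of_mem_subKb M⟩
  obtain ⟨hfin, hrows⟩ := finB
  obtain ⟨w, hw, hfix⟩ := (specB M).exists_fix stepsB [] (fun p hp => List.mem_range.2 (by
    simpa using List.all_eq_true.1 hrows p hp)) okB g (stableB_of_commute M hg) (fun p hp => absurd hp (List.not_mem_nil))
  have hwK : (w.map fun i => M.tau (LB i)).prod ∈ subKb M := Subgroup.list_prod_mem _ fun y hy => by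
    obtain ⟨i, hi, rfl⟩ := List.mem_map.1 hy
    rw [LB_eq (hw i hi)]
    exact Subgroup.subset_closure ⟨_, rfl⟩
  have hall := (specB M).fix_all (le_refl 72) hfin
    (stableB_of_commute M (by rw [map_mul]; exact (commute_of_mem_subKb M hwK).mul_right hg)) hfix
  have h := eq_one_of_fix_qB M (g := (w.map fun i => M.tau (LB i)).prod * g)
    (fun i => by simpa only [LB_eq i.2] using hall i i.2)
  rw [← inv_mul_cancel_left (w.map fun i => M.tau (LB i)).prod g, h, mul_one]
  exact inv_mem hwK

/-- The bound on the order. -/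
theorem card_subKb_le [Finite G] : Nat.card (subKb M) ≤ 3317760 := by
  obtain ⟨hfin, hrows⟩ := finB
  have h := (specB M).ncard_le (subKb M) (fun g hg => stableB_of_commute M (commute_of_mem_subKb M hg))
    (fun i (hi : i < 72) => by rw [LB_eq hi]; exact Subgroup.subset_closure ⟨_, rfl⟩) stepsB []
    (fun p hp => List.mem_range.2 (by simpa using List.all_eq_true.1 hrows p hp)) okB
  have hone : {g : G | g ∈ subKb M ∧ FixesL M LB g (SData.finalPre stepsB [])}.ncard ≤ 1 := by
    refine (Set.ncard_le_ncard (t := {1}) (fun g hg => ?_) (Set.finite_singleton _)).trans (Set.ncard_singleton _).le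
    have hall := (specB M).fix_all (le_refl 72) hfin (stableB_of_commute M (commute_of_mem_subKb M hg.1)) hg.2
    exact eq_one_of_fix_qB M fun i => by simpa only [LB_eq i.2] using hall i i.2
  have e : {g : G | g ∈ subKb M ∧ FixesL M LB g []} = (subKb M : Set G) := by
    ext g; simp [FixesL]
  rw [e, boundB] at h
  rw [show Nat.card (subKb M) = (subKb M : Set G).ncard from Nat.card_coe_set_eq _]
  exact h.trans ((Nat.mul_le_mul_left _ hone).trans (by norm_num))

end CfsgLib.SporRecognition.F22Model.Outer
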