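import Cfsg.Agent.Lib.SporRecognition.F22Model.Outer.FixSets
import Cfsg.Agent.Lib.SporRecognition.F22Model.Outer.DataF

/-!
The elements commuting with the first outer involution form the subgroup `O⁺₈(2):S₃`.
-/

set_option autoImplicit false
set_option linter.constructorNameAsVariable false
set_option maxRecDepth 100000
set_option Elab.async false

namespace CfsgLib.SporRecognition.F22Model.Outer

open CfsgLib.SporRecognition.CosetCert
open CfsgLib.SporadicB.Fi22 (OPlus.pF OPlus.pt OPlus.ge OPlus.II OPlus.img OPlus.step_spec OPlus.ge_eq OPlus.ge_mem_II)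

/-- The points of the certificate. -/
noncomputable def LF (i : Nat) : Fin 3510 := if h : i < 360 then OPlus.pF ⟨i, h⟩ else 0

theorem LF_eq {i : Nat} (hi : i < 360) : LF i = OPlus.pF ⟨i, hi⟩ := dif_pos hi

theorem adjF_all (r : Nat) (hr : r < 8) (x : Nat) (hx : x < 360) : adjF (rowF.getD r 0) x =
    Nat.beq (tr (memWord (rowFW.getD r [])) (OPlus.pt x)) (OPlus.pt x) := by
  have key : ∀ {b : Nat → Bool}, (List.range 360).all b = true → b x = true := fun h =>
    List.all_eq_true.1 h x (List.mem_range.2 hx)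
  apply eq_of_beq
  interval_cases r
  exacts [key adjF_0, key adjF_1, key adjF_2, key adjF_3, key adjF_4, key adjF_5, key adjF_6, key adjF_7]

variable {G : Type*} [Group G] {D : Set G} (M : Model G D)

theorem specF : SSpec M dataF LF (OPlus.ge M) where
  inj i j (hi : i < 360) (hj : j < 360) h := by
    rw [LF_eq hi, LF_eq hj] at h
    exact congrArg Fin.val (CfsgLib.SporadicB.Fi22.OPlus.pF_injective h)
  img i hi k (hk : k < 360) := by
    obtain ⟨h1, h2, -⟩ := OPlus.step_spec hi ⟨k, hk⟩
    refine ⟨h1, Fin.ext ?_⟩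
    show _ = ((LF (OPlus.img i k) : Fin 3510) : Nat)
    rw [LF_eq hk, LF_eq h1, OPlus.ge_eq M hi, M.act_ev]
    exact h2
  rowsLt p hp := by
    have h := List.all_eq_true.1 rowF_chk.2.1 p hp
    rw [Nat.blt_eq] at h
    exact h
  adjEq p hp x (hx : x < 360) := by
    obtain ⟨r, hr, e⟩ := List.getElem_of_mem (show p ∈ rowF from hp)
    have hr8 : r < 8 := hr
    have hp' : rowF.getD r 0 = p := (List.getD_eq_getElem _ _ hr).trans e
    have hp360 : p < 360 := by
      have h := List.all_eq_true.1 rowF_chk.2.1 p hp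
      rw [Nat.blt_eq] at h
      exact h
    have hw := Nat.eq_of_beq_eq_true (List.all_eq_true.1 rowF_chk.1 r (List.mem_range.2 hr8))
    rw [hp'] at hw
    show adjF p x = true ↔ _
    rw [← hp', adjF_all r hr8 x hx, hp', Nat.beq_eq, LF_eq hp360, LF_eq hx, Fin.ext_iff,
      M.tau_word _ (OPlus.pF ⟨p, hp360⟩) hw, M.act_ev]
    exact Iff.rfl
  prodEq i j k _ _ _ h := absurd h (by simp [dataF])

variable [Finite G] (hD : Cfsg.IsThreeTranspositionGroup D) (hprim : Cfsg.IsPrimitiveUnderConj D)
  (ht : Cfsg.IsOfTypeM22 G D)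

include hD hprim ht

/-- The elements commuting with the first involution. -/
theorem commute_sPerm_iff (g : G) : Commute sPerm (M.act g) ↔ g ∈ OPlus.II M := by
  have hback : ∀ g ∈ OPlus.II M, Commute sPerm (M.act g) := fun g hg => by
    induction hg using Subgroup.closure_induction with
    | mem y hy =>
      obtain ⟨i, rfl⟩ := hy
      exact commute_of_fix M (sPerm_mem M) (sPerm_pF _)
    | one => rw [map_one]; exact Commute.one_right _
    | mul y z _ _ h1 h2 => rw [map_mul]; exact h1.mul_right h2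
    | inv y _ h1 => rw [map_inv]; exact h1.inv_right
  refine ⟨fun hg => ?_, hback g⟩
  have hst : ∀ g : G, Commute sPerm (M.act g) → Stable M dataF LF g := fun g hg i (hi : i < 360) => by
    obtain ⟨j, hj⟩ := (fix_sPerm _).1 (fix_image M hg (sPerm_pF ⟨i, hi⟩))
    exact ⟨j, j.2, by rw [LF_eq hi, LF_eq j.2]; exact hj.symm⟩
  obtain ⟨hfin, hrows⟩ := finF
  obtain ⟨w, hw, hfix⟩ := (specF M).exists_fix stepsF [] (fun p hp => by
    simpa [dataF] using List.all_eq_true.1 hrows p hp) okF g (hst g hg) (fun p hp => absurd hp (List.not_mem_nil))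
  have hwK : (w.map (OPlus.ge M)).prod ∈ OPlus.II M := Subgroup.list_prod_mem _ fun y hy => by
    obtain ⟨i, hi, rfl⟩ := List.mem_map.1 hy
    exact OPlus.ge_mem_II M (hw i hi)
  have hall := (specF M).fix_all (show 120 ≤ dataF.n by decide) hfin
    (hst _ (by rw [map_mul]; exact (hback _ hwK).mul_right hg)) hfix
  have h := CfsgLib.SporadicB.Fi22.OPlus.eq_one_of_fix M hD hprim ht (g := (w.map (OPlus.ge M)).prod * g)
    (fun k => by
      have := hall k k.2
      rwa [LF_eq (by omega)] at this)
  rw [← inv_mul_cancel_left (w.map (OPlus.ge M)).prod g, h, mul_one]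
  exact inv_mem hwK

end CfsgLib.SporRecognition.F22Model.Outer
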