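import Cfsg.Agent.Lib.SporRecognition.F22Model.Outer.DataB
import Cfsg.Agent.Lib.SporRecognition.F22Model.Outer.MinusSixGeo
import Cfsg.Agent.Lib.Cores.PCore
import Cfsg.Prelude.Def_Transfer

/-!
The subgroup generated by the members at the 72 points: the products of the 36 twin pairs give an elementary abelian
group of order 64, the 2-core, with quotient the orthogonal group of minus type in dimension six over two elements.
-/

set_option autoImplicit false
set_option maxRecDepth 100000
set_option maxHeartbeats 2000000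

namespace CfsgLib.SporRecognition.F22Model.Outer.MinusSix

open CfsgLib.SporRecognition.CosetCert

def vkL : List Nat := [7, 18, 5, 18, 16, 32, 13, 13, 56, 10, 10, 63, 31, 19, 44, 20, 24, 50, 11, 31, 24, 5, 40, 22, 16, 25, 14, 47, 17, 32, 41, 7, 56, 60, 33, 41, 20, 60, 63, 50, 38, 11, 33, 48, 19, 38, 48, 25, 22, 52, 47, 36, 28, 34, 17, 52, 57, 51, 40, 35, 14, 44, 51, 54, 49, 34, 49, 57, 28, 54, 35, 36]
def eL : List (List Nat) := [[0, 31], [1, 3], [2, 21], [5, 29], [6, 7], [13, 44]]
def ksL : List Nat := [0, 1, 2, 5, 6, 13]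

/-- The vector of a point. -/
def vk (i : Fin 72) : Fin 64 := ⟨vkL.getD i.1 0 % 64, Nat.mod_lt _ (by decide)⟩

/-- The image of a point under a member. -/
def pP (i k : Fin 72) : Fin 72 := ⟨pB i.1 k.1 % 72, Nat.mod_lt _ (by decide)⟩

theorem vk_ok : (∀ i k : Fin 72, vk (pP i k) = refl (vk i) (vk k)) ∧ (∀ i, qn (vk i).1 = true) ∧
    ∀ v : Fin 64, qn v.1 = true → ∃ i, vk i = v := by
  decide +kernel

/-- The word of a subset of the six twin pairs. -/
def eW (x : Fin 64) : List (Fin 72) :=
  ((List.range 6).filter (fun l => x.1.testBit l)).flatMap fun l =>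
    (eL.getD l []).map fun n => ⟨n % 72, Nat.mod_lt _ (by decide)⟩

/-- A word applied to a point. -/
def runP (w : List (Fin 72)) (k : Fin 72) : Fin 72 := w.foldr pP k

def kPt (l : Fin 6) : Fin 72 := ⟨ksL.getD l.1 0 % 72, Nat.mod_lt _ (by decide)⟩

theorem eW_ok : (∀ x : Fin 64, ∀ k : Fin 72, runP (eW x) (runP (eW x) k) = k ∧ vk (runP (eW x) k) = vk k) ∧
    ∀ x y : Fin 64, (∀ l, runP (eW x) (kPt l) = runP (eW y) (kPt l)) → x = y := by
  decide +kernel

variable {G : Type*} [Group G] {D : Set G} (M : Model G D)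

theorem act_qB (i k : Fin 72) : M.act (M.tau (qB i)) (qB k) = qB (pP i k) := by
  have h := allBelow_spec (allBelow_spec pB_chk i.1 i.2) k.1 k.2
  simp only [Bool.and_eq_true, Nat.blt_eq, Nat.beq_eq] at h
  have hw : tr (qBW.getD i []) 0 = qB i :=
    Nat.eq_of_beq_eq_true (List.all_eq_true.1 qBL_chk.2.2.2 i (List.mem_range.2 i.2))
  apply Fin.ext
  rw [M.tau_word _ _ hw, M.act_ev]
  show tr (memWord (qBW.getD i [])) (qB k) = qBL.getD (pP i k).1 0
  rw [show (pP i k).1 = pB i.1 k.1 from Nat.mod_eq_of_lt h.1]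
  exact h.2

theorem tau_mem_subKb (i : Fin 72) : M.tau (qB i) ∈ subKb M := Subgroup.subset_closure ⟨i, rfl⟩

/-- The element and the isometry agree on the labels. -/
def Compat (g : G) (A : Iso) : Prop := ∀ k, ∃ k', M.act g (qB k) = qB k' ∧ vk k' = rho A (vk k)

theorem compat_one : Compat M 1 1 := fun k => ⟨k, by simp, (rho_one _).symm⟩

theorem compat_tau (i : Fin 72) : Compat M (M.tau (qB i)) (R (vk i)) := fun k =>
  ⟨pP i k, act_qB M i k, (vk_ok.1 i k).trans (rho_R _ _).symm⟩

variable {M}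

theorem Compat.mul {g h : G} {A B : Iso} (hg : Compat M g A) (hh : Compat M h B) : Compat M (g * h) (A * B) := by
  intro k
  obtain ⟨k1, e1, v1⟩ := hh k
  obtain ⟨k2, e2, v2⟩ := hg k1
  exact ⟨k2, by rw [map_mul, Equiv.Perm.mul_apply, e1, e2], by rw [v2, v1, rho_mul]⟩

theorem Compat.inv {g : G} {A : Iso} (hg : Compat M g A) : Compat M g⁻¹ A⁻¹ := by
  choose f hf hv using hg
  have hinj : Function.Injective f := fun a b h =>
    qB_injective ((M.act g).injective (by rw [hf, hf, h]))
  intro k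
  obtain ⟨k', rfl⟩ := (Finite.injective_iff_surjective.1 hinj) k
  refine ⟨k', ?_, ?_⟩
  · rw [map_inv, Equiv.Perm.inv_def, Equiv.symm_apply_eq, hf]
  · rw [hv, rho_inv_apply]

theorem Compat.unique {g : G} {A B : Iso} (hA : Compat M g A) (hB : Compat M g B) : A = B := by
  have h : ∀ v : Fin 64, qn v.1 = true → rho A v = rho B v := fun v hv => by
    obtain ⟨k, rfl⟩ := vk_ok.2.2 v hv
    obtain ⟨a, ea, va⟩ := hA k
    obtain ⟨b, eb, vb⟩ := hB k
    rw [← va, ← vb, qB_injective (ea.symm.trans eb)]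
  refine eq_of_rho fun x => ?_
  obtain ⟨u, h1, h2, h3⟩ := nonsingular_span x
  have e : ∀ C : Iso, rho C x = xf (rho C u) (rho C (xf u x)) := fun C => by rw [← rho_xf, h3]
  rw [e A, e B, h u h1, h _ h2]

variable (M)

theorem exists_compat {g : G} (hg : g ∈ subKb M) : ∃ A, Compat M g A := by
  induction hg using Subgroup.closure_induction with
  | mem x hx => obtain ⟨i, rfl⟩ := hx; exact ⟨_, compat_tau M i⟩
  | one => exact ⟨1, compat_one M⟩
  | mul x y _ _ hx hy => obtain ⟨A, hA⟩ := hx; obtain ⟨B, hB⟩ := hy; exact ⟨A * B, hA.mul hB⟩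
  | inv x _ hx => obtain ⟨A, hA⟩ := hx; exact ⟨A⁻¹, hA.inv⟩

/-- The isometry of an element. -/
noncomputable def phi : subKb M →* Iso where
  toFun g := (exists_compat M g.2).choose
  map_one' := (exists_compat M (1 : subKb M).2).choose_spec.unique (compat_one M)
  map_mul' g h := (exists_compat M (g * h).2).choose_spec.unique
    ((exists_compat M g.2).choose_spec.mul (exists_compat M h.2).choose_spec)

theorem phi_spec (g : subKb M) : Compat M g (phi M g) := (exists_compat M g.2).choose_spec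

theorem phi_surjective : Function.Surjective (phi M) := by
  intro A
  refine MonoidHom.mem_range.1 (mem_of_reflections (fun v hv => ?_) A)
  obtain ⟨i, rfl⟩ := vk_ok.2.2 v hv
  exact ⟨⟨_, tau_mem_subKb M i⟩, (phi_spec M _).unique (compat_tau M i)⟩

/-- The element of a word. -/
noncomputable def gW (w : List (Fin 72)) : G := (w.map fun i => M.tau (qB i)).prod

theorem gW_mem (w : List (Fin 72)) : gW M w ∈ subKb M :=
  Subgroup.list_prod_mem _ fun x hx => by obtain ⟨i, -, rfl⟩ := List.mem_map.1 hx; exact tau_mem_subKb M i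

theorem act_gW (w : List (Fin 72)) (k : Fin 72) : M.act (gW M w) (qB k) = qB (runP w k) := by
  induction w with
  | nil => simp [gW, runP]
  | cons i w ih =>
    rw [gW, List.map_cons, List.prod_cons, map_mul, Equiv.Perm.mul_apply, ← gW, ih, act_qB]
    rfl

/-- The element of a subset of the six twin pairs. -/
noncomputable def eK (x : Fin 64) : subKb M := ⟨gW M (eW x), gW_mem M _⟩

theorem eK_mem_ker (x : Fin 64) : eK M x ∈ (phi M).ker :=
  MonoidHom.mem_ker.2 ((phi_spec M _).unique fun k =>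
    ⟨_, act_gW M _ k, ((eW_ok.1 x k).2).trans (rho_one _).symm⟩)

theorem eK_injective : Function.Injective (eK M) := fun x y h => eW_ok.2 x y fun l => qB_injective (by
  rw [← act_gW M, ← act_gW M, show gW M (eW x) = gW M (eW y) from congrArg Subtype.val h])

variable [Finite G] (hcard : Nat.card (subKb M) ≤ 3317760) (hfix : ∀ g : G, (∀ i, M.act g (qB i) = qB i) → g = 1)

include hcard in
theorem ker_eq_range : ∀ g ∈ (phi M).ker, ∃ x, eK M x = g := by
  let f : Fin 64 → (phi M).ker := fun x => ⟨eK M x, eK_mem_ker M x⟩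
  have hf : Function.Injective f := fun x y h => eK_injective M (congrArg Subtype.val h)
  have hle : Nat.card (phi M).ker ≤ 64 := by
    have h1 := Subgroup.card_eq_card_quotient_mul_card_subgroup (phi M).ker
    rw [Nat.card_congr (QuotientGroup.quotientKerEquivOfSurjective _ (phi_surjective M)).toEquiv] at h1
    by_contra hlt
    have h2 : 51840 * 65 ≤ Nat.card Iso * Nat.card (phi M).ker := Nat.mul_le_mul le_card (by omega)
    rw [← h1] at h2
    omega
  have hb := hf.bijective_of_nat_card_le (hle.trans_eq (Nat.card_fin 64).symm)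
  intro g hg
  obtain ⟨x, hx⟩ := hb.2 ⟨g, hg⟩
  exact ⟨x, congrArg Subtype.val hx⟩

include hcard in
theorem natCard_ker : Nat.card (phi M).ker = 64 := by
  rw [← Nat.card_congr (Equiv.ofBijective (fun x : Fin 64 => (⟨eK M x, eK_mem_ker M x⟩ : (phi M).ker))
    ⟨fun x y h => eK_injective M (congrArg Subtype.val h), fun g => by
      obtain ⟨x, hx⟩ := ker_eq_range M hcard g g.2
      exact ⟨x, Subtype.ext hx⟩⟩)]
  simp

include hcard in
theorem ker_eq_pCore : (phi M).ker = Cfsg.pCore 2 (subKb M) := by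
  have : Fact (Nat.Prime 2) := ⟨Nat.prime_two⟩
  apply le_antisymm
  · exact Cores.le_pCore (IsPGroup.of_card (n := 6) (by rw [natCard_ker M hcard]; norm_num))
  · rw [← Subgroup.map_eq_bot_iff]
    exact eq_bot_of_normal (Subgroup.Normal.map inferInstance _ (phi_surjective M))
      ((Cores.isPGroup_pCore 2 _).map _)

include hcard hfix in
/-- The structure of the subgroup generated by the members at the 72 points. -/
theorem _root_.CfsgLib.SporRecognition.F22Model.Outer.Kb_structure :
    ∃ O : Subgroup G, O = (Cfsg.pCore 2 (subKb M)).map (subKb M).subtype ∧ Cfsg.IsElementaryAbelian 2 O ∧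
      Nat.card O = 64 ∧ ∃ _ : (O.subgroupOf (subKb M)).Normal, Nonempty (subKb M ⧸ O.subgroupOf (subKb M) ≃*
        Cfsg.isometryGroup (ZMod 2) (Cfsg.quadFormMinus 2 (ZMod 2) 1 1)) := by
  refine ⟨_, rfl, ?_⟩
  rw [← ker_eq_pCore M hcard]
  have hc : ((phi M).ker.map (subKb M).subtype).subgroupOf (subKb M) = (phi M).ker :=
    Subgroup.comap_map_eq_self_of_injective (subKb M).subtype_injective _
  have hsq : ∀ a ∈ (phi M).ker.map (subKb M).subtype, a * a = 1 := by
    rintro _ ⟨g, hg, rfl⟩
    obtain ⟨x, rfl⟩ := ker_eq_range M hcard g hg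
    refine hfix _ fun k => ?_
    show M.act (gW M (eW x) * gW M (eW x)) (qB k) = qB k
    rw [map_mul, Equiv.Perm.mul_apply, act_gW, act_gW, (eW_ok.1 x k).1]
  refine ⟨⟨⟨⟨fun a b => ?_⟩⟩, fun a ha => by rw [pow_two]; exact hsq a ha⟩, ?_, ?_⟩
  · refine Subtype.ext ?_
    have ia : (a : G)⁻¹ = a := inv_eq_of_mul_eq_one_right (hsq _ a.2)
    have ib : (b : G)⁻¹ = b := inv_eq_of_mul_eq_one_right (hsq _ b.2)
    have iab : ((a : G) * b)⁻¹ = a * b := inv_eq_of_mul_eq_one_right (hsq _ (mul_mem a.2 b.2))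
    rw [_root_.mul_inv_rev, ia, ib] at iab
    exact iab.symm
  · rw [Subgroup.card_subtype]
    exact natCard_ker M hcard
  · have hn : (((phi M).ker.map (subKb M).subtype).subgroupOf (subKb M)).Normal := by
      rw [hc]; infer_instance
    exact ⟨hn, ⟨(QuotientGroup.quotientMulEquivOfEq hc).trans
      (QuotientGroup.quotientKerEquivOfSurjective _ (phi_surjective M))⟩⟩

end CfsgLib.SporRecognition.F22Model.Outer.MinusSix
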