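import Cfsg.Agent.Lib.SporRecognition.F22Model.Outer.DataA
import Cfsg.Agent.Lib.SporRecognition.F22Model.Outer.DataB

/-!
An element fixing the points fixed by one of the two smaller outer involutions is determined.
-/

set_option autoImplicit false
set_option linter.constructorNameAsVariable false
set_option maxRecDepth 100000

namespace CfsgLib.SporRecognition.F22Model.Outer

open CfsgLib.SporRecognition.CosetCert

/-- Each listed point is the conjugate of an earlier one by an initial one, and the generating points are reached. -/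
noncomputable def cloOK (ini : List Nat) (ws : List Word) : List (Nat × Nat × Nat) → List Nat → Bool
  | [], cur => ([.a, .b, .c, .d, .e, .f, .g, .h, .i] : List Gen).all fun x => cur.contains (genPt x)
  | (x, y, k) :: t, cur => Nat.blt x ini.length && cur.contains y && Nat.blt y 3510 &&
      Nat.beq (tr (ws.getD x []) 0) (ini.getD x 0) && Nat.beq (tr (memWord (ws.getD x [])) y) k &&
      cloOK ini ws t (k :: cur)

theorem cloA_chk : cloOK (qAL ++ [vPtA]) (qAW ++ [vWA]) cloA (qAL ++ [vPtA]) = true := by decide +kernel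

theorem cloB_chk : cloOK (qBL ++ [vPtB]) (qBW ++ [vWB]) cloB (qBL ++ [vPtB]) = true := by decide +kernel

theorem lenA : (qAL ++ [vPtA]).all (fun x => Nat.blt x 3510) = true := by decide +kernel

theorem lenB : (qBL ++ [vPtB]).all (fun x => Nat.blt x 3510) = true := by decide +kernel

variable {G : Type*} [Group G] {D : Set G} (M : Model G D)

theorem fixed_of_clo {ini : List Nat} {ws : List Word} {π π' : Equiv.Perm (Fin 3510)} (h : π ∈ AutPerm M)
    (h' : π' ∈ AutPerm M) (hini : ∀ x : Fin 3510, (x : Nat) ∈ ini → π x = π' x) :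
    ∀ (st : List (Nat × Nat × Nat)) (cur : List Nat), (∀ x : Fin 3510, (x : Nat) ∈ cur → π x = π' x) →
      cloOK ini ws st cur = true → π = π' := by
  intro st
  induction st with
  | nil =>
    intro cur hcur hok
    refine eq_of_gens M h h' fun x => hcur _ ?_
    show genPt x ∈ cur
    simpa using List.all_eq_true.1 hok x (gen_mem x)
  | cons s t ih =>
    intro cur hcur hok
    obtain ⟨x, y, k⟩ := s
    simp only [cloOK, Bool.and_eq_true, Nat.blt_eq, Nat.beq_eq, List.contains_iff_mem] at hok
    obtain ⟨⟨⟨⟨⟨hx, hy⟩, hy'⟩, hw⟩, hp⟩, hrest⟩ := hok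
    refine ih (k :: cur) (fun z hz => ?_) hrest
    rcases List.mem_cons.1 hz with hz | hz
    · have hxm : ini.getD x 0 ∈ ini := by
        rw [List.getD_eq_getElem _ _ hx]; exact List.getElem_mem _
      have hxb : ini.getD x 0 < 3510 := hw ▸ trace_lt Cert.Fi22U.certified.tables (ws.getD x []) 0 (by decide)
      have e : M.act (M.tau ⟨ini.getD x 0, hxb⟩) ⟨y, hy'⟩ = z := by
        refine Fin.ext ?_
        rw [M.tau_word _ ⟨ini.getD x 0, hxb⟩ hw, M.act_ev, ← memWord]
        exact hp.trans hz.symm
      rw [← e, h, h', hini ⟨ini.getD x 0, hxb⟩ hxm, hcur ⟨y, hy'⟩ hy]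
    · exact hcur z hz

end CfsgLib.SporRecognition.F22Model.Outer
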