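import Cfsg.Agent.Lib.SporRecognition.F22Model.Outer.Targets

/-!
An element permuting a list of points is brought by the given generators to one fixing enough of them: orbit and
derivation steps checked on the indices.
-/

set_option autoImplicit false
set_option linter.constructorNameAsVariable false

namespace CfsgLib.SporRecognition.F22Model.Outer

open CfsgLib.SporRecognition.CosetCert

/-- A step: an index with a word back to it for every candidate, or an index derived from two fixed ones. -/
inductive SStep where
  | orbit (u : Nat) (ws : List (List Nat))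
  | derive (i j k : Nat)

/-- The data of a certificate on indices. -/
structure SData where
  n : Nat
  ng : Nat
  im : Nat → Nat → Nat
  adj : Nat → Nat → Bool
  prodChk : Nat → Nat → Nat → Bool
  rows : List Nat

namespace SData

variable (S : SData)

/-- A word applied to an index, last letter first. -/
def run (w : List Nat) (x : Nat) : Nat := w.foldr S.im x

/-- A possible image of `u` when `pre` is fixed. -/
def cand (pre : List Nat) (u x : Nat) : Bool :=
  !(pre.contains x) && pre.all (fun p => S.adj p x == S.adj p u)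

/-- The check of one step. -/
def okStep (pre : List Nat) : SStep → Bool
  | .orbit u ws => Nat.blt u S.n && !(pre.contains u) && pre.all (fun p => S.rows.contains p) &&
      (List.range S.n).all (fun x => !(S.cand pre u x) || ((ws.getD x []).all (fun i => Nat.blt i S.ng) &&
        Nat.beq (S.run (ws.getD x []) x) u && pre.all (fun p => Nat.beq (S.run (ws.getD x []) p) p)))
  | .derive i j k => pre.contains i && pre.contains j && Nat.blt k S.n && S.prodChk i j k

/-- The fixed indices after the steps. -/
def finalPre : List SStep → List Nat → List Nat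
  | [], pre => pre
  | .orbit u _ :: t, pre => finalPre t (u :: pre)
  | .derive _ _ k :: t, pre => finalPre t (k :: pre)

/-- The check of all steps. -/
def okSteps : List SStep → List Nat → Bool
  | [], _ => true
  | .orbit u ws :: t, pre => S.okStep pre (.orbit u ws) && okSteps t (u :: pre)
  | .derive i j k :: t, pre => S.okStep pre (.derive i j k) && okSteps t (k :: pre)

/-- The product of the numbers of candidates. -/
def bound : List SStep → List Nat → Nat
  | [], _ => 1
  | .orbit u _ :: t, pre => ((List.range S.n).filter (S.cand pre u)).length * bound t (u :: pre)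
  | .derive _ _ k :: t, pre => bound t (k :: pre)

/-- Every index below `m` is determined by the fixed ones. -/
def okFinal (fin : List Nat) (m : Nat) : Bool :=
  fin.all (fun p => S.rows.contains p) &&
    (List.range m).all (fun x => fin.contains x || (List.range S.n).all (fun y => !(S.cand fin x y) || Nat.beq y x))

end SData

variable {G : Type*} [Group G] {D : Set G} (M : Model G D)

/-- The data describe the points `L` and the elements `gen`. -/
structure SSpec (S : SData) (L : Nat → Fin 3510) (gen : Nat → G) : Prop where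
  inj : ∀ i j, i < S.n → j < S.n → L i = L j → i = j
  img : ∀ i, i < S.ng → ∀ k, k < S.n → S.im i k < S.n ∧ M.act (gen i) (L k) = L (S.im i k)
  rowsLt : ∀ p ∈ S.rows, p < S.n
  adjEq : ∀ p ∈ S.rows, ∀ x, x < S.n → (S.adj p x = true ↔ M.act (M.tau (L p)) (L x) = L x)
  prodEq : ∀ i j k, i < S.n → j < S.n → k < S.n → S.prodChk i j k = true → M.act (M.tau (L i)) (L j) = L k

/-- The element permutes the points. -/
def Stable (S : SData) (L : Nat → Fin 3510) (g : G) : Prop := ∀ i, i < S.n → ∃ j, j < S.n ∧ M.act g (L i) = L j

/-- The element fixes the listed points. -/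
def FixesL (L : Nat → Fin 3510) (g : G) (pre : List Nat) : Prop := ∀ p ∈ pre, M.act g (L p) = L p

variable {M} {S : SData} {L : Nat → Fin 3510} {gen : Nat → G}

theorem Stable.mul {g h : G} (hg : Stable M S L g) (hh : Stable M S L h) : Stable M S L (g * h) := fun i hi => by
  obtain ⟨j, hj, e⟩ := hh i hi
  obtain ⟨k, hk, e'⟩ := hg j hj
  exact ⟨k, hk, by rw [map_mul, Equiv.Perm.mul_apply, e, e']⟩

theorem SSpec.run_eq (hS : SSpec M S L gen) : ∀ w : List Nat, (∀ i ∈ w, i < S.ng) → ∀ x, x < S.n →
    S.run w x < S.n ∧ M.act (w.map gen).prod (L x) = L (S.run w x) := by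
  intro w hw x hx
  induction w with
  | nil => exact ⟨hx, by simp [SData.run]⟩
  | cons i w ih =>
    obtain ⟨h1, h2⟩ := ih fun j hj => hw j (List.mem_cons_of_mem _ hj)
    obtain ⟨h3, h4⟩ := hS.img i (hw i (List.mem_cons_self ..)) _ h1
    exact ⟨h3, by rw [List.map_cons, List.prod_cons, map_mul, Equiv.Perm.mul_apply, h2, h4]; rfl⟩

theorem SSpec.stable_word (hS : SSpec M S L gen) (w : List Nat) (hw : ∀ i ∈ w, i < S.ng) :
    Stable M S L (w.map gen).prod := fun x hx => ⟨_, (hS.run_eq w hw x hx).1, (hS.run_eq w hw x hx).2⟩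

theorem SSpec.cand_image (hS : SSpec M S L gen) {g : G} {pre : List Nat} (hp : ∀ p ∈ pre, p ∈ S.rows)
    (hf : FixesL M L g pre) {u x : Nat} (hu : u < S.n) (hu' : u ∉ pre) (hx : x < S.n) (e : M.act g (L u) = L x) :
    S.cand pre u x = true := by
  have hx' : x ∉ pre := fun h => by
    have hp' := hS.rowsLt x (hp x h)
    rw [← hf x h] at e
    exact hu' ((hS.inj u x hu hp' ((M.act g).injective e)).symm ▸ h)
  simp only [SData.cand, Bool.and_eq_true, Bool.not_eq_true', List.all_eq_true, beq_iff_eq]
  refine ⟨?_, fun p hp' => ?_⟩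
  · rw [← Bool.not_eq_true, List.contains_iff_mem]
    exact hx'
  · rw [Bool.eq_iff_iff, hS.adjEq p (hp p hp') x hx, hS.adjEq p (hp p hp') u hu,
      ← (M.act g).injective.eq_iff (a := M.act (M.tau (L p)) (L u)) (b := L u), M.act_tau, hf p hp', e]

/-- The words of an orbit step. -/
theorem SSpec.orbit_step (hS : SSpec M S L gen) {pre : List Nat} (hp : ∀ p ∈ pre, p ∈ S.rows) {u : Nat}
    {ws : List (List Nat)} (hok : S.okStep pre (.orbit u ws) = true) :
    u < S.n ∧ u ∉ pre ∧ ∀ x, x < S.n → S.cand pre u x = true → (∀ i ∈ ws.getD x [], i < S.ng) ∧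
      M.act ((ws.getD x []).map gen).prod (L x) = L u ∧ FixesL M L ((ws.getD x []).map gen).prod pre := by
  simp only [SData.okStep, Bool.and_eq_true, Nat.blt_eq, Bool.not_eq_true', List.all_eq_true] at hok
  obtain ⟨⟨⟨hu, hu'⟩, -⟩, hall⟩ := hok
  refine ⟨hu, fun h => ?_, fun x hx hc => ?_⟩
  · rw [List.contains_iff_mem.2 h] at hu'
    exact absurd hu' (by decide)
  · have h := hall x (List.mem_range.2 hx)
    simp only [hc, Bool.not_true, Bool.false_or, Bool.and_eq_true, List.all_eq_true, Nat.blt_eq, Nat.beq_eq] at h
    obtain ⟨⟨hw, e⟩, hfix⟩ := h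
    refine ⟨hw, ?_, fun p hp' => ?_⟩
    · rw [(hS.run_eq _ hw x hx).2, e]
    · rw [(hS.run_eq _ hw p (hS.rowsLt p (hp p hp'))).2, hfix p hp']

theorem SSpec.derive_step (hS : SSpec M S L gen) {g : G} {pre : List Nat} (hp : ∀ p ∈ pre, p ∈ S.rows)
    (hf : FixesL M L g pre) {i j k : Nat} (hok : S.okStep pre (.derive i j k) = true) : FixesL M L g (k :: pre) := by
  simp only [SData.okStep, Bool.and_eq_true, Nat.blt_eq, List.contains_iff_mem] at hok
  obtain ⟨⟨⟨hi, hj⟩, hk⟩, hc⟩ := hok
  intro p hp'
  rcases List.mem_cons.1 hp' with rfl | h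
  · rw [← hS.prodEq i j p (hS.rowsLt i (hp i hi)) (hS.rowsLt j (hp j hj)) hk hc, M.act_tau, hf i hi, hf j hj]
  · exact hf p h

theorem subset_finalPre : ∀ (st : List SStep) (pre : List Nat), ∀ p ∈ pre, p ∈ SData.finalPre st pre
  | [], _, _, hp => hp
  | .orbit _ _ :: t, _, p, hp => subset_finalPre t _ p (List.mem_cons_of_mem _ hp)
  | .derive _ _ _ :: t, _, p, hp => subset_finalPre t _ p (List.mem_cons_of_mem _ hp)

/-- Some product of the generators followed by the element fixes the final points. -/
theorem SSpec.exists_fix (hS : SSpec M S L gen) : ∀ (st : List SStep) (pre : List Nat),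
    (∀ p ∈ SData.finalPre st pre, p ∈ S.rows) → S.okSteps st pre = true → ∀ g : G, Stable M S L g →
      FixesL M L g pre → ∃ w : List Nat, (∀ i ∈ w, i < S.ng) ∧
        FixesL M L ((w.map gen).prod * g) (SData.finalPre st pre) := by
  intro st
  induction st with
  | nil => intro pre _ _ g _ hf; exact ⟨[], by simp, by simpa [SData.finalPre] using hf⟩
  | cons s t ih =>
    intro pre hrows hok g hg hf
    have hp : ∀ p ∈ pre, p ∈ S.rows := fun p h => hrows p (subset_finalPre _ _ p h)
    cases s with
    | orbit u ws =>
      simp only [SData.okSteps, Bool.and_eq_true] at hok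
      obtain ⟨hu, hu', hall⟩ := hS.orbit_step hp hok.1
      obtain ⟨x, hx, e⟩ := hg u hu
      obtain ⟨hw, h1, h2⟩ := hall x hx (hS.cand_image hp hf hu hu' hx e)
      obtain ⟨w', hw', hfix⟩ := ih (u :: pre) hrows hok.2 _ ((hS.stable_word _ hw).mul hg) (by
        intro p hp'
        rcases List.mem_cons.1 hp' with rfl | h
        · rw [map_mul, Equiv.Perm.mul_apply, e, h1]
        · rw [map_mul, Equiv.Perm.mul_apply, hf p h, h2 p h])
      refine ⟨w' ++ ws.getD x [], fun i hi => (List.mem_append.1 hi).elim (hw' i) (hw i), ?_⟩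
      rw [List.map_append, List.prod_append, mul_assoc]
      exact hfix
    | derive i j k =>
      simp only [SData.okSteps, Bool.and_eq_true] at hok
      exact ih (k :: pre) hrows hok.2 g hg (hS.derive_step hp hf hok.1)

/-- The order is at most the product of the numbers of candidates times that of the final stabiliser. -/
theorem SSpec.ncard_le [Finite G] (hS : SSpec M S L gen) (K : Subgroup G) (hK : ∀ g ∈ K, Stable M S L g)
    (hgen : ∀ i, i < S.ng → gen i ∈ K) : ∀ (st : List SStep) (pre : List Nat),
    (∀ p ∈ SData.finalPre st pre, p ∈ S.rows) → S.okSteps st pre = true →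
      {g : G | g ∈ K ∧ FixesL M L g pre}.ncard ≤
        S.bound st pre * {g : G | g ∈ K ∧ FixesL M L g (SData.finalPre st pre)}.ncard := by
  classical
  intro st
  induction st with
  | nil => intro pre _ _; simp [SData.bound, SData.finalPre]
  | cons s t ih =>
    intro pre hrows hok
    have hp : ∀ p ∈ pre, p ∈ S.rows := fun p h => hrows p (subset_finalPre _ _ p h)
    cases s with
    | derive i j k =>
      simp only [SData.okSteps, Bool.and_eq_true] at hok
      refine le_trans (Set.ncard_le_ncard (t := {g : G | g ∈ K ∧ FixesL M L g (k :: pre)})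
        (fun g hg => ⟨hg.1, hS.derive_step hp hg.2 hok.1⟩) (Set.toFinite _)) ?_
      exact ih (k :: pre) hrows hok.2
    | orbit u ws =>
      simp only [SData.okSteps, Bool.and_eq_true] at hok
      obtain ⟨hu, hu', hall⟩ := hS.orbit_step hp hok.1
      let C : Finset Nat := ((List.range S.n).filter (S.cand pre u)).toFinset
      let T : Set G := {g : G | g ∈ K ∧ FixesL M L g (u :: pre)}
      let A : Set G := {g : G | g ∈ K ∧ FixesL M L g pre}
      have him : ∀ g : G, g ∈ A → ∃ x, x < S.n ∧ M.act g (L u) = L x ∧ S.cand pre u x = true := fun g hg => by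
        obtain ⟨x, hx, e⟩ := hK g hg.1 u hu
        exact ⟨x, hx, e, hS.cand_image hp hg.2 hu hu' hx e⟩
      choose im h1 h2 h3 using him
      let f : A → C × T := fun g =>
        (⟨im g g.2, List.mem_toFinset.2 (List.mem_filter.2 ⟨List.mem_range.2 (h1 g g.2), h3 g g.2⟩)⟩,
         ⟨((ws.getD (im g g.2) []).map gen).prod * g, by
          obtain ⟨hw, e1, e2⟩ := hall _ (h1 g g.2) (h3 g g.2)
          refine ⟨mul_mem (Subgroup.list_prod_mem _ fun y hy => ?_) g.2.1, fun p hp' => ?_⟩
          · obtain ⟨i, hi, rfl⟩ := List.mem_map.1 hy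
            exact hgen i (hw i hi)
          · rcases List.mem_cons.1 hp' with rfl | h
            · rw [map_mul, Equiv.Perm.mul_apply, h2 g g.2, e1]
            · rw [map_mul, Equiv.Perm.mul_apply, g.2.2 p h, e2 p h]⟩)
      have hf : Function.Injective f := fun a b h => by
        have ha : im a a.2 = im b b.2 := congrArg (fun z => (z.1 : Nat)) h
        have hb : ((ws.getD (im a a.2) []).map gen).prod * (a : G) = ((ws.getD (im b b.2) []).map gen).prod * (b : G) :=
          congrArg (fun z => (z.2 : G)) h
        rw [ha] at hb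
        exact Subtype.ext (mul_left_cancel hb)
      have hle := Nat.card_le_card_of_injective f hf
      rw [Nat.card_prod, Nat.card_coe_set_eq, Nat.card_coe_set_eq, Nat.card_eq_fintype_card, Fintype.card_coe] at hle
      refine le_trans hle (le_trans (Nat.mul_le_mul (List.toFinset_card_le _) (ih (u :: pre) hrows hok.2)) ?_)
      show _ ≤ ((List.range S.n).filter (S.cand pre u)).length * S.bound t (u :: pre) * _
      rw [mul_assoc]
      exact le_rfl

/-- An element fixing the final points fixes all determined ones. -/
theorem SSpec.fix_all (hS : SSpec M S L gen) {fin : List Nat} {m : Nat} (hm : m ≤ S.n)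
    (hok : S.okFinal fin m = true) {g : G} (hg : Stable M S L g) (hf : FixesL M L g fin) :
    ∀ x, x < m → M.act g (L x) = L x := by
  simp only [SData.okFinal, Bool.and_eq_true, List.all_eq_true, List.contains_iff_mem, Bool.or_eq_true] at hok
  obtain ⟨hrows, hall⟩ := hok
  intro x hx
  by_cases hxf : x ∈ fin
  · exact hf x hxf
  rcases hall x (List.mem_range.2 hx) with h | h
  · exact absurd h hxf
  obtain ⟨y, hy, e⟩ := hg x (hx.trans_le hm)
  rcases h y (List.mem_range.2 hy) with h' | h'
  · rw [hS.cand_image hrows hf (hx.trans_le hm) hxf hy e] at h'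
    exact absurd h' (by decide)
  · rw [e, Nat.eq_of_beq_eq_true h']

end CfsgLib.SporRecognition.F22Model.Outer
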