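import Cfsg.Agent.Lib.SporRecognition.F22Model.Outer.FixedA
import Cfsg.Agent.Lib.SporRecognition.F22Model.Outer.FixedB
import Cfsg.Agent.Lib.SporRecognition.F22Model.Outer.FixedS

/-!
Stage of the row on the outer involutions of the M(22) case: everything except the classification and the two
structure statements, which are taken as hypotheses.
-/

set_option autoImplicit false
set_option linter.constructorNameAsVariable false
set_option maxRecDepth 10000
set_option maxHeartbeats 400000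

namespace CfsgLib.SporRecognition.F22Model.Outer

attribute [local irreducible] sPerm Equiv.Perm.sign

open CfsgLib.SporRecognition.CosetCert

theorem targets_chk : sT bP = bP ∧ tr (memWord wA) bP = bP ∧ (bP : Nat) ≠ aP := by decide +kernel

variable {G : Type*} [Group G] {D : Set G} (M : Model G D)

theorem commute_aP_bP : Commute (M.tau aP) (M.tau bP) :=
  (M.commute_tau_iff _ _).2 (Fin.ext (by rw [tau_aP, M.act_ev]; exact targets_chk.2.1))

theorem sPerm_bP : sPerm bP = bP := Fin.ext (by rw [sPerm_val]; exact targets_chk.1)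

/-- The outer involution as an automorphism. -/
noncomputable def sAut : MulAut G := toAut M ⟨sPerm, sPerm_mem M⟩

theorem sAut_mul_conj (g : G) : sAut M * MulAut.conj g = toAut M ⟨sPerm * M.act g, mul_mem (sPerm_mem M) (act_mem M g)⟩ := by
  rw [← toAut_act M g, sAut, ← map_mul]
  rfl

theorem sAut_not_inner : sAut M ∉ (MulAut.conj : G →* MulAut G).range := fun h => by
  have e := toAut_mem_inn M (π := ⟨sPerm, sPerm_mem M⟩) h
  rw [sign_sPerm] at e
  exact absurd e (by decide)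

theorem sign_of_outer {π : AutPerm M} (h : toAut M π ∉ (MulAut.conj : G →* MulAut G).range) :
    Equiv.Perm.sign (π : Equiv.Perm (Fin 3510)) = -1 := by
  let e : MulAut G ≃* MulAut K := MulAut.congr M.iso
  have hconj : ∀ g : G, e (MulAut.conj g) = MulAut.conj (M.iso g) := fun g =>
    MulEquiv.ext fun x => by simp [e, MulAut.congr]
  have hmem : ∀ φ : MulAut G, e φ ∈ Cfsg.Inn K ↔ φ ∈ (MulAut.conj : G →* MulAut G).range := fun φ => by
    constructor
    · rintro ⟨k, hk⟩
      exact ⟨M.iso.symm k, e.injective (by rw [hconj, MulEquiv.apply_symm_apply]; exact hk)⟩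
    · rintro ⟨g, rfl⟩
      exact ⟨M.iso g, (hconj g).symm⟩
  have hidx : (Cfsg.Inn K).index = 2 := CfsgLib.SporadicOut.Fi22.natCard_out_fi22G
  have hin : e (toAut M π * sAut M) ∈ Cfsg.Inn K := by
    rw [map_mul, Subgroup.mul_mem_iff_of_index_two hidx, hmem, hmem]
    simp only [h, sAut_not_inner M]
  rw [hmem, sAut, ← map_mul] at hin
  have := toAut_mem_inn M hin
  rw [Subgroup.coe_mul, Subgroup.coe_mk, map_mul, sign_sPerm] at this
  rcases Int.units_eq_one_or (Equiv.Perm.sign (π : Equiv.Perm (Fin 3510))) with h1 | h1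
  · rw [h1] at this; exact absurd this (by decide)
  · exact h1

theorem not_isConj {π π' : AutPerm M} (h : fixC (π : Equiv.Perm (Fin 3510)) ≠ fixC (π' : Equiv.Perm (Fin 3510))) :
    ¬ IsConj (toAut M π) (toAut M π') := fun hc => h (by
  obtain ⟨c, hc⟩ := isConj_iff.1 hc
  obtain ⟨γ, rfl⟩ := toAut_surjective M c
  rw [← map_inv, ← map_mul, ← map_mul] at hc
  rw [← toAut_injective M hc]
  simp only [Subgroup.coe_mul, Subgroup.coe_inv]
  rw [fixC_conj])

/-- The content of the row from the classification and the two structures. -/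
theorem outer_stage [Finite G] (hD : Cfsg.IsThreeTranspositionGroup D) (hprim : Cfsg.IsPrimitiveUnderConj D)
    (ht : Cfsg.IsOfTypeM22 G D)
    (hclass : ∀ π ∈ AutPerm M, π * π = 1 → Equiv.Perm.sign π = -1 →
      ∃ c ∈ AutPerm M, c * π * c⁻¹ = sPerm ∨ c * π * c⁻¹ = sPerm * M.act (M.tau aP) ∨
        c * π * c⁻¹ = sPerm * M.act (M.tau aP * M.tau bP))
    (hKa : Nonempty (subKa M ≃* Multiplicative (ZMod 2) × Cfsg.PSp 3 (ZMod 2)))
    (hKb : ∃ O : Subgroup G, O = (Cfsg.pCore 2 (subKb M)).map (subKb M).subtype ∧ Cfsg.IsElementaryAbelian 2 O ∧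
      Nat.card O = 64 ∧ ∃ _ : (O.subgroupOf (subKb M)).Normal, Nonempty (subKb M ⧸ O.subgroupOf (subKb M) ≃*
        Cfsg.isometryGroup (ZMod 2) (Cfsg.quadFormMinus 2 (ZMod 2) 1 1))) :
    ∃ (s : MulAut G) (a b : G) (Cs : Subgroup G), orderOf s = 2 ∧ s ∉ (MulAut.conj : G →* MulAut G).range ∧
      (∀ g : G, g ∈ Cs ↔ s g = g) ∧ Nonempty (↥Cs ≃* MulAut (Cfsg.Omega (ZMod 2) (Cfsg.quadFormPlus 4 (ZMod 2)))) ∧
      a ∈ D ∧ b ∈ D ∧ a ≠ b ∧ Commute a b ∧ s a = a ∧ s b = b ∧
      (∀ t : MulAut G, orderOf t = 2 → t ∉ (MulAut.conj : G →* MulAut G).range →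
        (IsConj t s ∨ IsConj t (s * MulAut.conj a) ∨ IsConj t (s * MulAut.conj (a * b)))) ∧
      ¬ IsConj s (s * MulAut.conj a) ∧ ¬ IsConj s (s * MulAut.conj (a * b)) ∧
      ¬ IsConj (s * MulAut.conj a) (s * MulAut.conj (a * b)) ∧
      (∀ g : G, (s * MulAut.conj a) g = g ↔ g ∈ Cs ⊓ Subgroup.centralizer ({a} : Set G)) ∧
      Nonempty (↥(Cs ⊓ Subgroup.centralizer ({a} : Set G)) ≃* Multiplicative (ZMod 2) × Cfsg.PSp 3 (ZMod 2)) ∧
      ∃ Csab O : Subgroup G, (∀ g : G, g ∈ Csab ↔ (s * MulAut.conj (a * b)) g = g) ∧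
        O = (Cfsg.pCore 2 ↥Csab).map Csab.subtype ∧ Cfsg.IsElementaryAbelian 2 O ∧ Nat.card O = 64 ∧
        ∃ _ : (O.subgroupOf Csab).Normal, Nonempty (↥Csab ⧸ O.subgroupOf Csab ≃*
          Cfsg.isometryGroup (ZMod 2) (Cfsg.quadFormMinus 2 (ZMod 2) 1 1)) := by
  have hfix : ∀ g : G, sAut M g = g ↔ g ∈ CfsgLib.SporadicB.Fi22.OPlus.II M := fun g =>
    (toAut_fix_iff M _ g).trans (commute_sPerm_iff M hD hprim ht g)
  have hfixa : ∀ g : G, (sAut M * MulAut.conj (M.tau aP)) g = g ↔ g ∈ subKa M := fun g => by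
    rw [sAut_mul_conj, toAut_fix_iff]
    exact commute_saPerm_iff M g
  have hKaeq : CfsgLib.SporadicB.Fi22.OPlus.II M ⊓ Subgroup.centralizer ({M.tau aP} : Set G) = subKa M := by
    refine le_antisymm (fun g hg => ?_) ((Subgroup.closure_le _).2 ?_)
    · obtain ⟨h1, h2⟩ := Subgroup.mem_inf.1 hg
      rw [← hfixa, MulAut.mul_apply, MulAut.conj_apply,
        show M.tau aP * g * (M.tau aP)⁻¹ = g from by
          rw [(Subgroup.mem_centralizer_singleton_iff.1 h2).symm, mul_inv_cancel_right]]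
      exact (hfix g).2 h1
    · rintro _ ⟨i, rfl⟩
      refine Subgroup.mem_inf.2 ⟨(hfix _).1 ((toAut_fix_iff M _ _).2 (commute_of_fix M (sPerm_mem M) (sPerm_qA i))), ?_⟩
      exact Subgroup.mem_centralizer_singleton_iff.2 ((M.commute_tau_iff _ _).2 (tau_aP_qA M i)).symm.eq
  refine ⟨sAut M, M.tau aP, M.tau bP, CfsgLib.SporadicB.Fi22.OPlus.II M, ?_, sAut_not_inner M,
    fun g => (hfix g).symm, CfsgLib.SporadicB.Fi22.OPlus.II_equiv M hD hprim ht, M.tau_mem _, M.tau_mem _,
    fun h => targets_chk.2.2 (congrArg Fin.val (M.tau_injective h)).symm, commute_aP_bP M,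
    (toAut_fix_iff M _ _).2 (commute_of_fix M (sPerm_mem M) sPerm_aP),
    (toAut_fix_iff M _ _).2 (commute_of_fix M (sPerm_mem M) sPerm_bP), ?_, ?_, ?_, ?_, ?_, ?_, ?_⟩
  · haveI : Fact (Nat.Prime 2) := ⟨Nat.prime_two⟩
    refine orderOf_eq_prime ?_ fun h => sAut_not_inner M (h ▸ one_mem _)
    rw [pow_two, sAut, ← map_mul, ← map_one (toAut M)]
    exact congrArg _ (Subtype.ext sPerm_sq)
  · intro t ht2 hout
    obtain ⟨π, rfl⟩ := toAut_surjective M t
    have hsq : (π : Equiv.Perm (Fin 3510)) * (π : Equiv.Perm (Fin 3510)) = 1 := by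
      have h := pow_orderOf_eq_one (toAut M π)
      rw [ht2, ← map_pow, ← map_one (toAut M)] at h
      have h' := congrArg Subtype.val (toAut_injective M h)
      simpa [pow_two] using h'
    obtain ⟨c, hc, h⟩ := hclass _ π.2 hsq (sign_of_outer M hout)
    have key : ∀ τ : AutPerm M, c * (π : Equiv.Perm (Fin 3510)) * c⁻¹ = (τ : Equiv.Perm (Fin 3510)) →
        IsConj (toAut M π) (toAut M τ) := fun τ e => isConj_iff.2 ⟨toAut M ⟨c, hc⟩, by
      rw [← map_inv, ← map_mul, ← map_mul]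
      exact congrArg _ (Subtype.ext e)⟩
    rcases h with h | h | h
    · exact Or.inl (key ⟨sPerm, sPerm_mem M⟩ h)
    · right; left; rw [sAut_mul_conj]; exact key ⟨_, mul_mem (sPerm_mem M) (act_mem M _)⟩ h
    · right; right; rw [sAut_mul_conj]; exact key ⟨_, mul_mem (sPerm_mem M) (act_mem M _)⟩ h
  · rw [sAut_mul_conj, sAut]
    exact not_isConj M (by rw [fixC_sPerm, show fixC (sPerm * M.act (M.tau aP)) = 64 from fixC_saPerm M]; decide)
  · rw [sAut_mul_conj, sAut]
    exact not_isConj M (by rw [fixC_sPerm, show fixC (sPerm * M.act (M.tau aP * M.tau bP)) = 72 from fixC_sabPerm M]; decide)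
  · rw [sAut_mul_conj, sAut_mul_conj]
    exact not_isConj M (by rw [show fixC (sPerm * M.act (M.tau aP)) = 64 from fixC_saPerm M,
      show fixC (sPerm * M.act (M.tau aP * M.tau bP)) = 72 from fixC_sabPerm M]; decide)
  · intro g
    rw [hKaeq, hfixa]
  · rw [hKaeq]; exact hKa
  · obtain ⟨O, hO⟩ := hKb
    refine ⟨subKb M, O, fun g => ?_, hO⟩
    rw [sAut_mul_conj, toAut_fix_iff]
    exact (commute_sabPerm_iff M g).symm

end CfsgLib.SporRecognition.F22Model.Outer
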