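import Cfsg.Agent.Lib.SporRecognition.F22Model.Outer.SymplecticSixData
import Cfsg.Agent.Lib.SporRecognition.F22Model.Outer.FixedA
import Cfsg.Agent.Lib.SporadicB.Fi22.OPlus.Blocks
import Cfsg.Agent.Lib.Forms.SympBridge
import Cfsg.Agent.Lib.ClassicalLinear.SympBasic

/-!
The fixed group of the second outer involution is `2 × Sp₆(2)`.
-/

set_option autoImplicit false
set_option linter.all false
set_option maxRecDepth 20000

namespace CfsgLib.SporRecognition.F22Model.Outer.SymplecticSix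

open CfsgLib.SporRecognition.CosetCert
open Matrix
open CfsgLib.SporadicB.Fi22 (OPlus.II OPlus.blockHom)

abbrev W6 : Type := Fin 3 ⊕ Fin 3 → ZMod 2

abbrev Sp6 : Type := Matrix.symplecticGroup (Fin 3) (ZMod 2)

/-- The vector of a code. -/
def vec6 (c : Nat) : W6 := fun i =>
  match i with
  | .inl j => if Nat.testBit c j then 1 else 0
  | .inr j => if Nat.testBit c (j + 3) then 1 else 0

/-- The code of a vector. -/
def codeOf6 (v : W6) : Nat :=
  ((List.finRange 3).map fun i => (v (.inl i)).val * 2 ^ (i : Nat) + (v (.inr i)).val * 2 ^ ((i : Nat) + 3)).sum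

theorem vec6_codeOf : ∀ v : W6, vec6 (codeOf6 v) = v ∧ codeOf6 v < 64 ∧ (codeOf6 v = 0 → v = 0) := by
  decide +kernel

theorem codeOf6_vec : ∀ c : Fin 64, codeOf6 (vec6 c) = c := by decide +kernel

theorem tC_vec : ∀ a c : Fin 64,
    vec6 c + Cfsg.sympForm 3 (ZMod 2) (vec6 c) (vec6 a) • vec6 a = vec6 (tC a c) := by decide +kernel

theorem vec6_inj {a b : Nat} (ha : a < 64) (hb : b < 64) (h : vec6 a = vec6 b) : a = b := by
  have h1 := congrArg codeOf6 h
  rwa [show codeOf6 (vec6 a) = a from codeOf6_vec ⟨a, ha⟩, show codeOf6 (vec6 b) = b from codeOf6_vec ⟨b, hb⟩] at h1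

theorem code_spec (i : Fin 63) : code i < 64 ∧ code i ≠ 0 ∧ ind (code i) = i := by
  have h := allBelow_spec code_ok i i.2
  simp only [Bool.and_eq_true, Bool.not_eq_true', Nat.blt_eq, Nat.beq_eq] at h
  refine ⟨h.1.1, fun h0 => ?_, h.2⟩
  rw [h0] at h
  exact absurd h.1.2 (by simp)

/-- The label of a point. -/
noncomputable def lbl (i : Fin 63) : W6 := vec6 (code i)

theorem lbl_inj : Function.Injective lbl := fun a b h => by
  have h1 := vec6_inj (code_spec a).1 (code_spec b).1 h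
  exact Fin.ext (by rw [← (code_spec a).2.2, h1, (code_spec b).2.2])

theorem exists_lbl {v : W6} (hv : v ≠ 0) : ∃ i : Fin 63, lbl i = v := by
  obtain ⟨hv', hlt, h0⟩ := vec6_codeOf v
  have h := allBelow_spec ind_ok _ hlt
  simp only [Bool.or_eq_true, Bool.and_eq_true, Nat.blt_eq, Nat.beq_eq] at h
  rcases h with h | ⟨hi, hc⟩
  · exact absurd (h0 h) hv
  · exact ⟨⟨_, hi⟩, (congrArg vec6 hc).trans hv'⟩

theorem lbl_ne (i : Fin 63) : lbl i ≠ 0 := fun h => (code_spec i).2.1 (by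
  have h1 := congrArg codeOf6 h
  rw [lbl, show codeOf6 (vec6 (code i)) = code i from codeOf6_vec ⟨_, (code_spec i).1⟩] at h1
  exact h1)

/-- The transvection at a label. -/
noncomputable def tv (i : Fin 63) : Sp6 :=
  ⟨Cfsg.sympTransvection 3 (lbl i) 1, CfsgLib.Forms.sympTransvection_mem _ _⟩

theorem sp_ext {A B : Sp6} (h : ∀ i, (A : Matrix (Fin 3 ⊕ Fin 3) (Fin 3 ⊕ Fin 3) (ZMod 2)) *ᵥ lbl i =
    (B : Matrix (Fin 3 ⊕ Fin 3) (Fin 3 ⊕ Fin 3) (ZMod 2)) *ᵥ lbl i) : A = B := by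
  refine Subtype.ext (Matrix.ext_of_mulVec_single fun j => ?_)
  obtain ⟨i, hi⟩ := exists_lbl (v := Pi.single j (1 : ZMod 2)) (fun e => by simpa using congrFun e j)
  rw [← hi]
  exact h i

theorem center_sp6 : Subgroup.center Sp6 = ⊥ := by
  refine Subgroup.card_eq_one.mp ?_
  rw [CfsgLib.ClassicalLinear.card_center_sp (by norm_num)]
  simp

variable {G : Type*} [Group G] {D : Set G} (M : Model G D)

/-- The element acts on the 63 points as the matrix. -/
def Rep6 (g : G) (A : Sp6) : Prop :=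
  ∀ i, ∃ k, M.act g (qA i) = qA k ∧ lbl k = (A : Matrix (Fin 3 ⊕ Fin 3) (Fin 3 ⊕ Fin 3) (ZMod 2)) *ᵥ lbl i

theorem rep_tau (i : Fin 63) : Rep6 M (M.tau (qA i)) (tv i) := by
  intro j
  obtain ⟨h1, h2⟩ := pA_spec M i.2 j.2
  rw [LA_eq i.2, LA_eq j.2, LA_eq h1] at h2
  refine ⟨⟨_, h1⟩, h2, ?_⟩
  show vec6 (code (pA i j)) = _
  rw [show code (pA (i : Nat) j) = tC (code i) (code j) from
    Nat.eq_of_beq_eq_true (allBelow_spec (allBelow_spec step_ok i i.2) j j.2)]
  show _ = Cfsg.sympTransvection 3 (lbl i) 1 *ᵥ lbl j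
  rw [CfsgLib.Forms.sympTransvection_mulVec, one_mul]
  exact (tC_vec ⟨_, (code_spec i).1⟩ ⟨_, (code_spec j).1⟩).symm

theorem Rep6.one : Rep6 M 1 1 := fun i => ⟨i, by rw [map_one]; rfl, by simp⟩

variable {M}

theorem Rep6.mul {g h : G} {A B : Sp6} (hg : Rep6 M g A) (hh : Rep6 M h B) : Rep6 M (g * h) (A * B) := by
  intro i
  obtain ⟨k, e, f⟩ := hh i
  obtain ⟨l, e', f'⟩ := hg k
  exact ⟨l, by rw [map_mul, Equiv.Perm.mul_apply, e, e'], by
    rw [f', f, Matrix.mulVec_mulVec]; rfl⟩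

theorem Rep6.unique {g : G} {A B : Sp6} (hA : Rep6 M g A) (hB : Rep6 M g B) : A = B := by
  refine sp_ext fun i => ?_
  obtain ⟨a, e, f⟩ := hA i
  obtain ⟨b, e', f'⟩ := hB i
  rw [e] at e'
  rw [← f, ← f', qA_injective e']

variable (M) [Finite G]

theorem exists_rep6 {g : G} (hg : g ∈ subKa M) : ∃ A, Rep6 M g A := by
  have hg' : g ∈ Submonoid.closure (Set.range fun i => M.tau (qA i)) := by
    rw [← Subgroup.closure_toSubmonoid_of_finite]; exact hg
  clear hg
  induction hg' using Submonoid.closure_induction with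
  | mem x hx => obtain ⟨i, rfl⟩ := hx; exact ⟨_, rep_tau M i⟩
  | one => exact ⟨1, Rep6.one M⟩
  | mul x y _ _ hx hy => obtain ⟨A, a⟩ := hx; obtain ⟨B, b⟩ := hy; exact ⟨_, a.mul b⟩

/-- The action on the labels. -/
noncomputable def rho6 : subKa M →* Sp6 where
  toFun g := (exists_rep6 M g.2).choose
  map_one' := (exists_rep6 M (1 : subKa M).2).choose_spec.unique (Rep6.one M)
  map_mul' a b := (exists_rep6 M (a * b).2).choose_spec.unique
    ((exists_rep6 M a.2).choose_spec.mul (exists_rep6 M b.2).choose_spec)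

theorem rho6_spec (g : subKa M) : Rep6 M g (rho6 M g) := (exists_rep6 M g.2).choose_spec

theorem rho6_surjective : Function.Surjective (rho6 M) := by
  rw [← MonoidHom.range_eq_top, eq_top_iff, ← CfsgLib.Forms.closure_sympTransvection 3 (ZMod 2), Subgroup.closure_le]
  rintro A ⟨w, c, hA⟩
  by_cases hc : c = 0 ∨ w = 0
  · have : A = 1 := Subtype.ext (by
      rw [hA]
      rcases hc with rfl | rfl <;> simp [Cfsg.sympTransvection])
    rw [this]; exact one_mem _
  · rw [not_or] at hc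
    obtain ⟨i, hi⟩ := exists_lbl hc.2
    have hc1 : c = 1 := (show ∀ x : ZMod 2, x ≠ 0 → x = 1 by decide) c hc.1
    refine ⟨⟨M.tau (qA i), Subgroup.subset_closure ⟨i, rfl⟩⟩, Rep6.unique (rho6_spec M _) ?_⟩
    have : A = tv i := Subtype.ext (by rw [hA, hc1, ← hi]; rfl)
    rw [this]
    exact rep_tau M i

theorem qA_pF (i : Fin 63) : ∃ k : Fin 120, SporadicB.Fi22.OPlus.pF (SporadicB.Fi22.OPlus.emb k) = qA i := by
  have h := allBelow_spec block_ok.1 i i.2
  simp only [Bool.and_eq_true, Nat.blt_eq, Nat.beq_eq] at h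
  exact ⟨⟨_, h.1⟩, Fin.ext h.2⟩

theorem subKa_le : subKa M ≤ SporadicB.Fi22.OPlus.II M := by
  refine (Subgroup.closure_le _).mpr ?_
  rintro _ ⟨i, rfl⟩
  obtain ⟨k, hk⟩ := qA_pF i
  show M.tau (qA i) ∈ _
  rw [← hk]
  exact SporadicB.Fi22.OPlus.tau_mem_II M _

theorem tau_aP_eq_ge : M.tau aP = SporadicB.Fi22.OPlus.ge M 0 := by
  rw [SporadicB.Fi22.OPlus.ge_zero]
  exact congrArg M.tau (Fin.ext (Nat.eq_of_beq_eq_true block_ok.2).symm)

/-- The sign of the block permutation. -/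
noncomputable def chi : subKa M →* ℤˣ :=
  (Equiv.Perm.sign.comp (SporadicB.Fi22.OPlus.blockHom M)).comp (Subgroup.inclusion (subKa_le M))

variable (hD : Cfsg.IsThreeTranspositionGroup D) (hprim : Cfsg.IsPrimitiveUnderConj D)
  (ht : Cfsg.IsOfTypeM22 G D)

include hD hprim ht

theorem chi_aP : chi M ⟨M.tau aP, tau_aP_mem M⟩ = -1 := by
  have h9 : (0 : Nat) < 9 := by norm_num
  show Equiv.Perm.sign (SporadicB.Fi22.OPlus.blockHom M _) = -1
  rw [show Subgroup.inclusion (subKa_le M) ⟨M.tau aP, tau_aP_mem M⟩ =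
      ⟨SporadicB.Fi22.OPlus.ge M 0, SporadicB.Fi22.OPlus.ge_mem_II M h9⟩ from Subtype.ext (tau_aP_eq_ge M),
    SporadicB.Fi22.OPlus.blockHom_ge M hD hprim ht h9]
  decide

theorem rho6_aP : rho6 M ⟨M.tau aP, tau_aP_mem M⟩ = 1 :=
  Rep6.unique (rho6_spec M _) fun i => ⟨i, tau_aP_qA M i, by simp⟩

theorem prod_bijective : Function.Bijective ((chi M).prod (rho6 M)) := by
  constructor
  · rw [← MonoidHom.ker_eq_bot_iff, Subgroup.eq_bot_iff_forall]
    rintro ⟨g, hg⟩ h
    rw [MonoidHom.mem_ker, MonoidHom.prod_apply, Prod.ext_iff] at h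
    have hr : Rep6 M g 1 := by
      have h' := rho6_spec M ⟨g, hg⟩
      rwa [show rho6 M ⟨g, hg⟩ = 1 from h.2] at h'
    have hfix : ∀ i, M.act g (qA i) = qA i := fun i => by
      obtain ⟨k, e, f⟩ := hr i
      simp only [OneMemClass.coe_one, Matrix.one_mulVec] at f
      rw [e, lbl_inj f]
    rcases eq_of_fix_qA M hfix with h1 | h1
    · exact Subtype.ext h1
    · exfalso
      have h2 : chi M ⟨g, hg⟩ = 1 := h.1
      rw [show (⟨g, hg⟩ : subKa M) = ⟨M.tau aP, tau_aP_mem M⟩ from Subtype.ext h1, chi_aP M hD hprim ht] at h2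
      exact absurd h2 (by decide)
  · rintro ⟨u, A⟩
    obtain ⟨g, hg⟩ := rho6_surjective M A
    rcases Int.units_eq_one_or (u * chi M g) with h | h
    · refine ⟨g, Prod.ext ?_ hg⟩
      show chi M g = u
      rcases Int.units_eq_one_or u with e | e <;> rcases Int.units_eq_one_or (chi M g) with e' | e' <;>
        simp [e, e'] at h ⊢
    · refine ⟨g * ⟨M.tau aP, tau_aP_mem M⟩, Prod.ext ?_ ?_⟩
      · show chi M (g * _) = u
        rw [map_mul, chi_aP M hD hprim ht]
        rcases Int.units_eq_one_or u with e | e <;> rcases Int.units_eq_one_or (chi M g) with e' | e' <;>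
          simp [e, e'] at h ⊢
      · show rho6 M (g * _) = A
        rw [map_mul, rho6_aP M hD hprim ht, mul_one, hg]

/-- The fixed group is `2 × PSp₆(2)`. -/
theorem Ka_equiv : Nonempty (subKa M ≃* Multiplicative (ZMod 2) × Cfsg.PSp 3 (ZMod 2)) := by
  let e1 : ℤˣ ≃* Multiplicative (ZMod 2) :=
    mulEquivOfPrimeCardEq (p := 2) (by simp) (by simp)
  let e2 : Sp6 ≃* Cfsg.PSp 3 (ZMod 2) :=
    ((QuotientGroup.quotientMulEquivOfEq center_sp6).trans QuotientGroup.quotientBot).symm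
  exact ⟨(MulEquiv.ofBijective _ (prod_bijective M hD hprim ht)).trans (MulEquiv.prodCongr e1 e2)⟩

end CfsgLib.SporRecognition.F22Model.Outer.SymplecticSix
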