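import Cfsg.Agent.Lib.SporRecognition.F22Model.Outer.DataA
import Cfsg.Agent.Lib.SporadicB.Fi22.OPlus.Check

/-! Labels of the 63 points by the non-zero vectors of `F₂⁶`. -/

set_option autoImplicit false
set_option maxRecDepth 20000
set_option linter.all false
set_option Elab.async false

namespace CfsgLib.SporRecognition.F22Model.Outer.SymplecticSix

open CfsgLib.SporRecognition.CosetCert

def codeLit : Nat := 0x148b75e0b23d957710f827d0ab16619bc9a28705fa3f629cd2e61bfec1090b32d72e12723af3b3de58d653a91d4e974
/-- The code of a point. -/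
noncomputable def code (i : Nat) : Nat := Nat.land (Nat.shiftRight codeLit (Nat.mul 6 i)) 63

def indLit : Nat := 0x446980d1838eb278dc1803ea5a193648a395c1502320b009770f4e3a4829a9354a03a17625b3e0c7821816084152c9d88f4cad69166bd2ff
/-- The point of a code. -/
noncomputable def ind (c : Nat) : Nat := Nat.land (Nat.shiftRight indLit (Nat.mul 7 c)) 127

/-- The form on codes. -/
def b6 (a b : Nat) : Bool :=
  (((Nat.testBit a 0 && Nat.testBit b 3) != (Nat.testBit a 3 && Nat.testBit b 0)) !=
    ((Nat.testBit a 1 && Nat.testBit b 4) != (Nat.testBit a 4 && Nat.testBit b 1))) !=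
    ((Nat.testBit a 2 && Nat.testBit b 5) != (Nat.testBit a 5 && Nat.testBit b 2))

/-- The image of a code under a transvection. -/
def tC (v c : Nat) : Nat := bif b6 c v then Nat.xor c v else c

theorem code_ok : allBelow 6 63 (fun i => Nat.blt (code i) 64 && !Nat.beq (code i) 0 && Nat.beq (ind (code i)) i) = true := by
  decide +kernel

theorem ind_ok : allBelow 6 64 (fun c => Nat.beq c 0 || (Nat.blt (ind c) 63 && Nat.beq (code (ind c)) c)) = true := by
  decide +kernel

theorem step_ok : allBelow 6 63 (fun i => allBelow 6 63 fun j =>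
    Nat.beq (code (pA i j)) (tC (code i) (code j))) = true := by
  decide +kernel

theorem block_ok : allBelow 6 63 (fun i => Nat.blt (CfsgLib.SporadicB.Fi22.OPlus.idx (qAL.getD i 0)) 120 &&
    Nat.beq (CfsgLib.SporadicB.Fi22.OPlus.pt (CfsgLib.SporadicB.Fi22.OPlus.idx (qAL.getD i 0))) (qAL.getD i 0)) = true ∧
    Nat.beq (CfsgLib.SporadicB.Fi22.OPlus.pt 0) 0 = true := by
  constructor <;> decide +kernel

end CfsgLib.SporRecognition.F22Model.Outer.SymplecticSix
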